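import Cfsg.Agent.Lib.Helper11.AschO.O4

/-! Ladder ASCHO, rung AB: an abelian irreducible group of isometries of determinant one in odd dimension is trivial. -/

set_option autoImplicit false

namespace Cfsg.Agent.Lib.Helper11.AschO

open Cfsg Cfsg.Geo QuadraticMap
open scoped MatrixGroups Matrix

variable {ι : Type} [Fintype ι] [DecidableEq ι] {F : Type*} [Field F]

theorem abelian_irr_trivial (h2 : (2 : F) ≠ 0) (Q : QuadraticForm F (ι → F)) (hQ : (polarBilin Q).Nondegenerate)
    (hodd : Odd (Fintype.card ι)) (N : Subgroup (GL ι F)) (hfix : FixesQuadForm (matrixSet N) Q)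
    (hdet : ∀ x ∈ N, (x : Matrix ι ι F).det = 1) (hcomm : ∀ x ∈ N, ∀ y ∈ N, x * y = y * x)
    (hirr : ActsIrreducibly (matrixSet N)) : N = ⊥ := by
  classical
  rw [Subgroup.eq_bot_iff_forall]
  intro x hx
  obtain ⟨v, hv0, hv⟩ := fixed_vector h2 Q hQ hodd (x : Matrix ι ι F) (fun v => hfix _ ⟨x, hx, rfl⟩ v) (hdet x hx)
  let W : Submodule F (ι → F) := LinearMap.ker (Matrix.toLin' (x : Matrix ι ι F) - LinearMap.id)
  have hmemW : ∀ u, u ∈ W ↔ (x : Matrix ι ι F) *ᵥ u = u := by
    intro u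
    simp [W, LinearMap.mem_ker, Matrix.toLin'_apply, sub_eq_zero]
  have hinv : ∀ s ∈ matrixSet N, W.map (Matrix.toLin' s) ≤ W := by
    rintro s ⟨y, hy, rfl⟩ _ ⟨u, hu, rfl⟩
    rw [SetLike.mem_coe, hmemW] at hu
    rw [hmemW, Matrix.toLin'_apply, Matrix.mulVec_mulVec, ← Units.val_mul, hcomm x hx y hy, Units.val_mul,
      ← Matrix.mulVec_mulVec, hu]
  rcases hirr W hinv with h | h
  · exfalso
    apply hv0
    have : v ∈ W := (hmemW v).mpr hv
    rw [h] at this
    simpa using this
  · apply Units.ext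
    rw [Units.val_one]
    apply Matrix.toLin'.injective
    apply LinearMap.ext
    intro u
    have : u ∈ W := by rw [h]; trivial
    rw [Matrix.toLin'_apply, (hmemW u).mp this]
    simp

end Cfsg.Agent.Lib.Helper11.AschO
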