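import Cfsg.Agent.Lib.Helper11.AschO.Defs

/-! Ladder ASCHO (helper11), rung DC1 (helper56). -/

set_option autoImplicit false

namespace Cfsg.Agent.Lib.Helper11.AschO

open Cfsg Cfsg.Geo
open Cfsg.Agent.Lib.Helper77.Asch (NormBy MinOver)
open scoped MatrixGroups Matrix

variable {ι : Type} [Fintype ι] [DecidableEq ι] {F : Type*} [Field F]

/-- DC1. -/
theorem scalar_of_deg_one [Nonempty ι] (K : Subalgebra F (Matrix ι ι F)) (hK : Module.finrank F K = 1) (M : Matrix ι ι F)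
    (hM : M ∈ K) : ∃ c : F, M = c • (1 : Matrix ι ι F) := by
  rw [Subalgebra.finrank_eq_one_iff] at hK
  rw [hK, Algebra.mem_bot] at hM
  obtain ⟨c, rfl⟩ := hM
  exact ⟨c, by rw [Algebra.algebraMap_eq_smul_one]⟩

end Cfsg.Agent.Lib.Helper11.AschO
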