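import Cfsg.Agent.Lib.Helper11.AschO.Defs

/-! Ladder ASCHO (helper11), rung DCN (helper56). -/

set_option autoImplicit false

namespace Cfsg.Agent.Lib.Helper11.AschO

open Cfsg Cfsg.Geo
open Cfsg.Agent.Lib.Helper77.Asch (NormBy MinOver)
open scoped MatrixGroups Matrix

variable {ι : Type} [Fintype ι] [DecidableEq ι] {F : Type*} [Field F]

/-- DCN. -/
theorem comm_of_deg_card [Nonempty ι] (K : Subalgebra F (Matrix ι ι F)) (hK : IsFieldSubalgebra (Fintype.card ι) K)
    (x y : Matrix ι ι F) (hx : ∀ k ∈ K, x * k = k * x) (hy : ∀ k ∈ K, y * k = k * y) : x * y = y * x := by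
  classical
  obtain ⟨i₀⟩ := (inferInstance : Nonempty ι)
  obtain ⟨u, hu⟩ : ∃ u : ι → F, u = Pi.single i₀ 1 := ⟨_, rfl⟩
  have hu0 : u ≠ 0 := by
    rw [hu]
    intro h
    have := congrFun h i₀
    simp at this
  let e : K →ₗ[F] (ι → F) :=
    { toFun := fun k => (k : Matrix ι ι F) *ᵥ u
      map_add' := fun a b => by simp [Matrix.add_mulVec]
      map_smul' := fun c a => by simp [Matrix.smul_mulVec] }
  have hinj : Function.Injective e := by
    rw [← LinearMap.ker_eq_bot, LinearMap.ker_eq_bot']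
    intro k hk
    by_contra hk0
    obtain ⟨k', _, hkk⟩ := hK.inv k.1 k.2 (fun h => hk0 (Subtype.ext h))
    have hcomm : k' * (k : Matrix ι ι F) = 1 := by
      rw [← hkk]
      exact hK.comm _ ‹_› _ k.2
    apply hu0
    have hk' : (k : Matrix ι ι F) *ᵥ u = 0 := hk
    calc u = (k' * (k : Matrix ι ι F)) *ᵥ u := by rw [hcomm, Matrix.one_mulVec]
      _ = 0 := by rw [← Matrix.mulVec_mulVec, hk', Matrix.mulVec_zero]
  have hsurj : Function.Surjective e := by
    apply (LinearMap.injective_iff_surjective_of_finrank_eq_finrank _).1 hinj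
    rw [hK.finrank_eq, Module.finrank_fintype_fun_eq_card]
  have key : ∀ z : Matrix ι ι F, (∀ k ∈ K, z * k = k * z) → z ∈ K := by
    intro z hz
    obtain ⟨k₀, hk₀⟩ := hsurj (z *ᵥ u)
    have hk₀' : (k₀ : Matrix ι ι F) *ᵥ u = z *ᵥ u := hk₀
    have : z = (k₀ : Matrix ι ι F) := by
      apply Matrix.toLin'.injective
      apply LinearMap.ext
      intro v
      obtain ⟨k, hk⟩ := hsurj v
      have hk' : (k : Matrix ι ι F) *ᵥ u = v := hk
      rw [Matrix.toLin'_apply, Matrix.toLin'_apply, ← hk', Matrix.mulVec_mulVec, Matrix.mulVec_mulVec,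
        hz k k.2, hK.comm _ k₀.2 _ k.2, ← Matrix.mulVec_mulVec, ← Matrix.mulVec_mulVec, hk₀']
    rw [this]
    exact k₀.2
  exact hK.comm x (key x hx) y (key y hy)

end Cfsg.Agent.Lib.Helper11.AschO
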