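import Cfsg.Agent.Lib.Helper11.AschO.Defs

/-! Ladder ASCHO (helper11), rung GCOMM (helper1): `ι`-version of the corresponding rung of ladder ASCH (helper77). -/

set_option autoImplicit false

namespace Cfsg.Agent.Lib.Helper11.AschO

open Cfsg Cfsg.Geo
open Cfsg.Agent.Lib.Helper77.Asch (NormBy MinOver)
open scoped MatrixGroups Matrix

variable {ι : Type} [Fintype ι] [DecidableEq ι] {F : Type*} [Field F]


/-- Schur's lemma. -/
theorem gcomm_inv (S : Set (Matrix ι ι F)) (hS : ActsIrreducibly S)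
    (x : Matrix ι ι F) (hx : x ∈ Subalgebra.centralizer F S) (hx0 : x ≠ 0) :
    ∃ y ∈ Subalgebra.centralizer F S, x * y = 1 ∧ y * x = 1 := by
  rw [Subalgebra.mem_centralizer_iff] at hx
  have hker : LinearMap.ker (Matrix.toLin' x) = ⊥ := by
    refine (hS (LinearMap.ker (Matrix.toLin' x)) ?_).resolve_right ?_
    · rintro s hs _ ⟨v, hv, rfl⟩
      rw [SetLike.mem_coe, LinearMap.mem_ker, Matrix.toLin'_apply] at hv
      rw [LinearMap.mem_ker, Matrix.toLin'_apply, Matrix.toLin'_apply, Matrix.mulVec_mulVec,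
        ← hx s hs, ← Matrix.mulVec_mulVec, hv, Matrix.mulVec_zero]
    · intro htop
      apply hx0
      rw [LinearMap.ker_eq_top] at htop
      exact Matrix.toLin'.injective (by rw [htop, map_zero])
  have hinj : Function.Injective x.mulVec := by
    have := LinearMap.ker_eq_bot.mp hker
    intro a b hab
    apply this
    rw [Matrix.toLin'_apply, Matrix.toLin'_apply]
    exact hab
  obtain ⟨u, hu⟩ := Matrix.mulVec_injective_iff_isUnit.mp hinj
  have h1 : x * (↑u⁻¹ : Matrix ι ι F) = 1 := by rw [← hu, Units.mul_inv]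
  have h2 : (↑u⁻¹ : Matrix ι ι F) * x = 1 := by rw [← hu, Units.inv_mul]
  refine ⟨↑u⁻¹, ?_, h1, h2⟩
  rw [Subalgebra.mem_centralizer_iff]
  intro s hs
  obtain ⟨y, hy⟩ : ∃ y : Matrix ι ι F, y = ↑u⁻¹ := ⟨_, rfl⟩
  rw [← hy] at h1 h2 ⊢
  calc s * y = (y * x) * s * y := by rw [h2, one_mul]
    _ = y * (x * s) * y := by simp only [mul_assoc]
    _ = y * (s * x) * y := by rw [hx s hs]
    _ = y * s * (x * y) := by simp only [mul_assoc]
    _ = y * s := by rw [h1, mul_one]

/-- COMM (Schur + Wedderburn). -/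
theorem comm_field [Finite F] [Nonempty ι] (S : Set (Matrix ι ι F)) (hS : ActsIrreducibly S) :
    IsFieldSubalgebra (Module.finrank F (Subalgebra.centralizer F S)) (Subalgebra.centralizer F S) := by
  refine ⟨?_, fun x hx hx0 => ?_, rfl⟩
  · have hnzd : NoZeroDivisors ↥(Subalgebra.centralizer F S) := by
      refine ⟨fun {a b} hab => ?_⟩
      by_cases ha : a = 0
      · exact Or.inl ha
      · right
        have ha' : (a : Matrix ι ι F) ≠ 0 := fun h => ha (Subtype.ext h)
        obtain ⟨y, -, -, hy⟩ := gcomm_inv S hS a a.2 ha'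
        apply Subtype.ext
        have h1 : (a : Matrix ι ι F) * b = 0 := congrArg Subtype.val hab
        calc (b : Matrix ι ι F) = (y * a) * b := by rw [hy, one_mul]
          _ = y * (a * b) := mul_assoc _ _ _
          _ = 0 := by rw [h1, mul_zero]
    have hdom : IsDomain ↥(Subalgebra.centralizer F S) := NoZeroDivisors.to_isDomain _
    have hfield := Finite.isDomain_to_isField ↥(Subalgebra.centralizer F S)
    intro x hx y hy
    exact congrArg Subtype.val (hfield.mul_comm ⟨x, hx⟩ ⟨y, hy⟩)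
  · obtain ⟨y, hy, h1, -⟩ := gcomm_inv S hS x hx hx0
    exact ⟨y, hy, h1⟩

end Cfsg.Agent.Lib.Helper11.AschO
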