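import Cfsg.Agent.Lib.Helper11.AschO.Defs

/-! Ladder ASCHO (helper11), rung GDEG (helper1): `ι`-version of the corresponding rung of ladder ASCH (helper77). -/

set_option autoImplicit false

namespace Cfsg.Agent.Lib.Helper11.AschO

open Cfsg Cfsg.Geo
open Cfsg.Agent.Lib.Helper77.Asch (NormBy MinOver)
open scoped MatrixGroups Matrix

variable {ι : Type} [Fintype ι] [DecidableEq ι] {F : Type*} [Field F]


theorem gdeg_aux {K' : Type*} [Field K'] [Algebra F K'] (φ : K' →ₐ[F] Module.End F (ι → F)) :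
    Module.finrank F K' ∣ Fintype.card ι := by
  letI : Module K' (ι → F) := Module.compHom _ φ.toRingHom
  haveI : IsScalarTower F K' (ι → F) := ⟨fun c k v => by
    show φ (c • k) v = c • φ k v
    rw [map_smul]; rfl⟩
  have := Module.finrank_mul_finrank F K' (ι → F)
  rw [Module.finrank_fintype_fun_eq_card] at this
  exact ⟨_, this.symm⟩

theorem deg_dvd [Nonempty ι] (r : ℕ) (K : Subalgebra F (Matrix ι ι F))
    (hK : IsFieldSubalgebra r K) : r ∣ Fintype.card ι := by
  have hf : IsField K :=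
    { exists_pair_ne := ⟨0, 1, fun h => by
        have h1 : (0 : Matrix ι ι F) = 1 := congrArg Subtype.val h
        exact zero_ne_one h1⟩
      mul_comm := fun x y => Subtype.ext (hK.comm x.1 x.2 y.1 y.2)
      mul_inv_cancel := fun {x} hx => by
        obtain ⟨y, hy, hxy⟩ := hK.inv x.1 x.2 (fun h => hx (Subtype.ext h))
        exact ⟨⟨y, hy⟩, Subtype.ext hxy⟩ }
  have h := @gdeg_aux ι _ _ F _ K hf.toField K.algebra
    ((Matrix.toLinAlgEquiv' : Matrix ι ι F ≃ₐ[F] _).toAlgHom.comp K.val)
  rw [← hK.finrank_eq]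
  exact h

end Cfsg.Agent.Lib.Helper11.AschO
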