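import Cfsg.Agent.Lib.Helper11.AschO.Defs
import Cfsg.Agent.Lib.Helper11.AschO.GCOMM
import Cfsg.Agent.Lib.Helper11.AschO.GDEG
import Cfsg.Agent.Lib.Helper11.AschO.DC1
import Cfsg.Agent.Lib.Helper11.AschO.DCN

/-! Ladder ASCHO (helper11), rung ABSI (helper56). -/

set_option autoImplicit false

namespace Cfsg.Agent.Lib.Helper11.AschO

open Cfsg Cfsg.Geo
open Cfsg.Agent.Lib.Helper77.Asch (NormBy MinOver)
open scoped MatrixGroups Matrix

variable {ι : Type} [Fintype ι] [DecidableEq ι] {F : Type*} [Field F]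

/-- ABSI. -/
theorem absIrr_or_comm [Finite F] (hn : (Fintype.card ι).Prime) (N : Subgroup (GL ι F))
    (hN : ActsIrreducibly (matrixSet N)) :
    ActsAbsolutelyIrreducibly (matrixSet N) ∨ ∀ x ∈ N, ∀ y ∈ N, x * y = y * x := by
  have : Nonempty ι := Fintype.card_pos_iff.1 hn.pos
  have hK := comm_field (matrixSet N) hN
  have hd := deg_dvd _ _ hK
  rcases (Nat.dvd_prime hn).1 hd with h1 | h1
  · left
    refine ⟨hN, fun M hM => ?_⟩
    apply scalar_of_deg_one _ h1 M
    rw [Subalgebra.mem_centralizer_iff]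
    intro s hs
    exact (hM s hs).symm
  · right
    rw [h1] at hK
    intro x hx y hy
    have hc : ∀ z ∈ N, ∀ k ∈ Subalgebra.centralizer F (matrixSet N),
        (z : Matrix ι ι F) * k = k * (z : Matrix ι ι F) := by
      intro z hz k hk
      rw [Subalgebra.mem_centralizer_iff] at hk
      exact hk _ ⟨z, hz, rfl⟩
    apply Units.ext
    rw [Units.val_mul, Units.val_mul]
    exact comm_of_deg_card _ hK _ _ (hc x hx) (hc y hy)

end Cfsg.Agent.Lib.Helper11.AschO
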