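import Cfsg.Agent.Lib.Helper11.AschO.Defs
import Cfsg.Agent.Lib.Helper11.AschO.GCOMM

/-! Ladder ASCHO (helper11), rung CCOM (helper56). -/

set_option autoImplicit false

namespace Cfsg.Agent.Lib.Helper11.AschO

open Cfsg Cfsg.Geo
open Cfsg.Agent.Lib.Helper77.Asch (NormBy MinOver)
open scoped MatrixGroups Matrix

variable {ι : Type} [Fintype ι] [DecidableEq ι] {F : Type*} [Field F]

/-- CCOM. -/
theorem commutant_comm [Finite F] [Nonempty ι] (M : Subgroup (GL ι F)) (hM : ActsIrreducibly (matrixSet M))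
    (a b : GL ι F) (ha : ∀ y ∈ M, a * y = y * a) (hb : ∀ y ∈ M, b * y = y * b) : a * b = b * a := by
  have hK := comm_field (matrixSet M) hM
  have hmem : ∀ c : GL ι F, (∀ y ∈ M, c * y = y * c) →
      (c : Matrix ι ι F) ∈ Subalgebra.centralizer F (matrixSet M) := by
    intro c hc
    rw [Subalgebra.mem_centralizer_iff]
    rintro s ⟨y, hy, rfl⟩
    have := congrArg (fun g : GL ι F => (g : Matrix ι ι F)) (hc y hy)
    simp only [Units.val_mul] at this
    exact this.symm
  apply Units.ext
  rw [Units.val_mul, Units.val_mul]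
  exact hK.comm _ (hmem a ha) _ (hmem b hb)

end Cfsg.Agent.Lib.Helper11.AschO
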