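import Cfsg.Agent.Lib.Helper11.AschO.Defs
import Cfsg.Agent.Lib.Helper49.HypPairs

set_option autoImplicit false

namespace Cfsg.Agent.Lib.Helper11.AschO

open Cfsg Cfsg.Geo QuadraticMap
open scoped MatrixGroups Matrix

variable {ι : Type} [Fintype ι] [DecidableEq ι] {F : Type*} [Field F]

theorem disc_det_mem (F₀ : Subfield F) (M : Matrix ι ι F) (h : ∀ i j, M i j ∈ F₀) : M.det ∈ F₀ := by
  let M₀ : Matrix ι ι F₀ := fun i j => ⟨M i j, h i j⟩
  have h1 : M = (F₀.subtype).mapMatrix M₀ := by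
    ext i j
    rfl
  rw [h1, ← RingHom.map_det]
  exact (M₀.det).2

theorem disc_Q_mem (m : ℕ) (F₀ : Subfield F) (v : Unit ⊕ (Fin m ⊕ Fin m) → F) (hv : ∀ i, v i ∈ F₀) :
    Cfsg.quadFormOdd m F v ∈ F₀ := by
  unfold Cfsg.quadFormOdd
  exact F₀.add_mem (F₀.pow_mem (hv _) 2) (F₀.sum_mem fun i _ => F₀.mul_mem (hv _) (hv _))

theorem disc_single_mem (F₀ : Subfield F) (i j : ι) : (Pi.single i 1 : ι → F) j ∈ F₀ := by
  by_cases h : j = i
  · subst h
    rw [Pi.single_eq_same]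
    exact F₀.one_mem
  · rw [Pi.single_eq_of_ne h]
    exact F₀.zero_mem

/-- DISC. -/
theorem oddQF_disc (m : ℕ) (F₀ : Subfield F) : (gram (Cfsg.Agent.Lib.Helper49.oddQF m F)).det ∈ F₀ := by
  apply disc_det_mem
  intro i j
  unfold gram gramMatrix
  rw [Cfsg.Agent.Lib.Helper49.oddQF_coe]
  unfold QuadraticMap.polar
  refine F₀.sub_mem (F₀.sub_mem (disc_Q_mem m F₀ _ ?_) (disc_Q_mem m F₀ _ ?_)) (disc_Q_mem m F₀ _ ?_)
  · intro l
    rw [Pi.add_apply]
    exact F₀.add_mem (disc_single_mem F₀ _ _) (disc_single_mem F₀ _ _)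
  · exact disc_single_mem F₀ _
  · exact disc_single_mem F₀ _

end Cfsg.Agent.Lib.Helper11.AschO
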