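import Mathlib
import Cfsg.Prelude.Def_GeometricClasses
import Cfsg.Agent.Lib.Helper77.Asch.Defs

/-! Ladder ASCHO: Aschbacher's theorem for `Ω_n(q)`, `n` an odd prime `≥ 7`, `q` odd (definitions). -/

set_option autoImplicit false

namespace Cfsg.Agent.Lib.Helper11.AschO

open Cfsg Cfsg.Geo
open scoped MatrixGroups Matrix

variable {ι : Type} [Fintype ι] [DecidableEq ι] {F : Type*} [Field F]

/-- the Gram matrix of the polar form of `Q` in the standard basis. -/
def gram (Q : QuadraticForm F (ι → F)) : Matrix ι ι F :=
  gramMatrix (QuadraticMap.polar Q)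

/-- the scalar matrix `c • 1` as an element of `GL ι F`. -/
def scl (c : Fˣ) : GL ι F :=
  Units.map (Matrix.scalar ι : F →+* Matrix ι ι F).toMonoidHom c

/-- the orthogonal complement of `W` for the polar form of `Q`. -/
def perp (Q : QuadraticForm F (ι → F)) (W : Submodule F (ι → F)) : Submodule F (ι → F) :=
  LinearMap.BilinForm.orthogonal (QuadraticMap.polarBilin Q) W

/-- the fixed field of a field automorphism. -/
def fixF (σ : F ≃+* F) : Subfield F where
  carrier := {a | σ a = a}
  mul_mem' := by intro a b ha hb; simp only [Set.mem_setOf_eq] at *; rw [map_mul, ha, hb]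
  one_mem' := map_one σ
  add_mem' := by intro a b ha hb; simp only [Set.mem_setOf_eq] at *; rw [map_add, ha, hb]
  zero_mem' := map_zero σ
  neg_mem' := by intro a ha; simp only [Set.mem_setOf_eq] at *; rw [map_neg, ha]
  inv_mem' := by intro a ha; simp only [Set.mem_setOf_eq] at *; rw [map_inv₀, ha]

end Cfsg.Agent.Lib.Helper11.AschO
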