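import Cfsg.Agent.Lib.Helper11.AschO.Defs

/-! Ladder ASCHO, rung FR: the weight lines of an abelian normal subgroup form an orthogonal frame. -/

set_option autoImplicit false

namespace Cfsg.Agent.Lib.Helper11.AschO

open Cfsg Cfsg.Geo QuadraticMap
open scoped MatrixGroups Matrix

variable {ι : Type} [Fintype ι] [DecidableEq ι] {F : Type*} [Field F]

theorem fr_polar_inv (Q : QuadraticForm F (ι → F)) (H : Subgroup (GL ι F))
    (hfix : FixesQuadForm (matrixSet H) Q) (h : GL ι F) (hh : h ∈ H) (u w : ι → F) :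
    polar Q ((h : Matrix ι ι F) *ᵥ u) ((h : Matrix ι ι F) *ᵥ w) = polar Q u w := by
  have hq : ∀ v, Q ((h : Matrix ι ι F) *ᵥ v) = Q v := fun v => hfix _ ⟨h, hh, rfl⟩ v
  unfold polar
  rw [← Matrix.mulVec_add, hq, hq, hq]

theorem fr_mulVec_ne_zero (h : GL ι F) (u : ι → F) (hu : u ≠ 0) : (h : Matrix ι ι F) *ᵥ u ≠ 0 := by
  intro h0
  apply hu
  have : ((h⁻¹ : GL ι F) : Matrix ι ι F) *ᵥ ((h : Matrix ι ι F) *ᵥ u) = 0 := by rw [h0, Matrix.mulVec_zero]
  rwa [Matrix.mulVec_mulVec, ← Units.val_mul, inv_mul_cancel, Units.val_one, Matrix.one_mulVec] at this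

theorem fr_injective (h : GL ι F) : Function.Injective (Matrix.toLin' (h : Matrix ι ι F)) := by
  intro a b hab
  by_contra hne
  have := fr_mulVec_ne_zero h (a - b) (sub_ne_zero.mpr hne)
  apply this
  rw [Matrix.mulVec_sub]
  simpa [Matrix.toLin'_apply, sub_eq_zero] using hab

theorem frame_orth (Q : QuadraticForm F (ι → F)) (hQ : (polarBilin Q).Nondegenerate) {n : ℕ} (hodd : Odd n)
    (H N : Subgroup (GL ι F)) (hN : N ≤ H) (hfix : FixesQuadForm (matrixSet H) Q)
    (D : Fin n → Submodule F (ι → F)) (χ : Fin n → GL ι F → F) (hD : IsMDecomposition 1 D)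
    (hw : ∀ i, ∀ u ∈ D i, ∀ x ∈ N, (x : Matrix ι ι F) *ᵥ u = χ i x • u)
    (hdist : ∀ i j, i ≠ j → ∃ x ∈ N, χ i x ≠ χ j x)
    (htr : ∀ i j, ∃ h ∈ H, (D i).map (Matrix.toLin' (h : Matrix ι ι F)) = D j) :
    IsOrthogonalMDecomposition Q 1 D := by
  classical
  -- generators
  have hgen : ∀ i, ∃ v : ι → F, v ∈ D i ∧ v ≠ 0 ∧ ∀ u ∈ D i, ∃ c : F, u = c • v := by
    intro i
    obtain ⟨v, hv0, hv⟩ := finrank_eq_one_iff'.mp (hD.finrank_eq i)
    refine ⟨v, v.2, fun h => hv0 (Subtype.ext h), fun u hu => ?_⟩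
    obtain ⟨c, hc⟩ := hv ⟨u, hu⟩
    exact ⟨c, by rw [← Submodule.coe_smul, hc]⟩
  choose v hvD hv0 hvs using hgen
  have hpl : ∀ (a b : F) (x y : ι → F), polar Q (a • x) (b • y) = a * b * polar Q x y := by
    intro a b x y
    rw [polar_smul_left, polar_smul_right, smul_eq_mul, smul_eq_mul, mul_assoc]
  have hsymm : ∀ x y : ι → F, polar Q x y = polar Q y x := fun x y => polar_comm Q x y
  -- characters multiply to one
  have hchi : ∀ i j, polar Q (v i) (v j) ≠ 0 → ∀ x ∈ N, χ i x * χ j x = 1 := by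
    intro i j hij x hx
    have h1 := fr_polar_inv Q H hfix x (hN hx) (v i) (v j)
    rw [hw i _ (hvD i) x hx, hw j _ (hvD j) x hx, hpl] at h1
    exact mul_right_cancel₀ hij (by rw [h1, one_mul])
  have huniq : ∀ i j j', polar Q (v i) (v j) ≠ 0 → polar Q (v i) (v j') ≠ 0 → j = j' := by
    intro i j j' h1 h2
    by_contra hne
    obtain ⟨x, hx, hxne⟩ := hdist j j' hne
    apply hxne
    have e1 := hchi i j h1 x hx
    have e2 := hchi i j' h2 x hx
    have hne0 : χ i x ≠ 0 := by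
      intro h0
      rw [h0, zero_mul] at e1
      exact zero_ne_one e1
    exact mul_left_cancel₀ hne0 (e1.trans e2.symm)
  have hex : ∀ i, ∃ j, polar Q (v i) (v j) ≠ 0 := by
    intro i
    by_contra hcon
    push_neg at hcon
    have hall : ∀ y : ι → F, polar Q (v i) y = 0 := by
      intro y
      have hy : y ∈ iSup D := by rw [hD.iSup_eq_top]; trivial
      induction hy using Submodule.iSup_induction' with
      | mem j x hx =>
        obtain ⟨c, rfl⟩ := hvs j x hx
        rw [polar_smul_right, hcon j, smul_zero]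
      | zero => simp [polar]
      | add x y _ _ hx hy => rw [polar_add_right, hx, hy, add_zero]
    apply hv0 i
    have := hQ.1 (v i) (fun y => by simpa using hall y)
    exact this
  choose s hs using hex
  have hinv : Function.Involutive s := by
    intro i
    have h1 : polar Q (v (s i)) (v i) ≠ 0 := by rw [hsymm]; exact hs i
    exact huniq (s i) _ _ (hs (s i)) h1
  obtain ⟨i0, hi0⟩ : ∃ i0, s i0 = i0 := by
    haveI : Fact (Nat.Prime 2) := ⟨Nat.prime_two⟩
    have hcard : ¬ 2 ∣ Fintype.card (Fin n) := by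
      rw [Fintype.card_fin]
      exact fun h => (Nat.not_even_iff_odd.mpr hodd) (even_iff_two_dvd.mpr h)
    have hpow : (hinv.toPerm) ^ 2 ^ 1 = 1 := by
      ext i
      simp [pow_two, hinv i]
    obtain ⟨a, ha⟩ := Equiv.Perm.exists_fixed_point_of_prime hcard hpow
    exact ⟨a, ha⟩
  have hdiag : ∀ i, polar Q (v i) (v i) ≠ 0 := by
    intro i
    obtain ⟨h, hh, hmap⟩ := htr i0 i
    have hmem : (h : Matrix ι ι F) *ᵥ (v i0) ∈ D i := by
      rw [← hmap]
      exact ⟨v i0, hvD i0, by simp [Matrix.toLin'_apply]⟩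
    obtain ⟨c, hc⟩ := hvs i _ hmem
    have h1 := fr_polar_inv Q H hfix h hh (v i0) (v i0)
    rw [hc, hpl] at h1
    intro h0
    rw [h0, mul_zero] at h1
    have := hs i0
    rw [hi0] at this
    exact this h1.symm
  have hoff : ∀ i j, i ≠ j → polar Q (v i) (v j) = 0 := by
    intro i j hij
    by_contra hne
    exact hij (huniq i i j (hdiag i) hne)
  refine ⟨⟨hD, ?_, ?_⟩, ?_⟩
  · intro i w hwD hw0
    obtain ⟨c, rfl⟩ := hvs i w hwD
    have hc : c ≠ 0 := by
      rintro rfl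
      exact hw0 (zero_smul _ _)
    refine ⟨⟨v i, hvD i, ?_⟩, ⟨v i, hvD i, ?_⟩⟩
    · rw [polar_smul_right, smul_eq_mul]
      exact mul_ne_zero hc (hdiag i)
    · rw [polar_smul_left, smul_eq_mul]
      exact mul_ne_zero hc (hdiag i)
  · intro i j hij u hu w hwD
    obtain ⟨a, rfl⟩ := hvs i u hu
    obtain ⟨b, rfl⟩ := hvs j w hwD
    rw [hpl, hoff i j hij, mul_zero]
  · intro i j
    obtain ⟨h, hh, hmap⟩ := htr i j
    refine ⟨(Submodule.equivMapOfInjective _ (fr_injective h) (D i)).trans (LinearEquiv.ofEq _ _ hmap), ?_⟩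
    intro w
    have : (((Submodule.equivMapOfInjective _ (fr_injective h) (D i)).trans (LinearEquiv.ofEq _ _ hmap) w : D j) : ι → F)
        = (h : Matrix ι ι F) *ᵥ (w : ι → F) := by
      simp [Matrix.toLin'_apply]
    rw [this]
    exact hfix _ ⟨h, hh, rfl⟩ _

end Cfsg.Agent.Lib.Helper11.AschO
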