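import Cfsg.Agent.Lib.Helper11.AschO.Defs

/-! Ladder ASCHO, rung FS2: isometries stabilising an orthonormal-type frame are monomial with entries `0, ± 1`. -/

set_option autoImplicit false

namespace Cfsg.Agent.Lib.Helper11.AschO

open Cfsg Cfsg.Geo QuadraticMap
open scoped MatrixGroups Matrix

variable {ι : Type} [Fintype ι] [DecidableEq ι] {F : Type*} [Field F]

theorem frame_monomial (Q : QuadraticForm F (ι → F)) {n : ℕ} (D : Fin n → Submodule F (ι → F)) (P : GL ι F) (e : ι ≃ Fin n)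
    (a : F) (ha : a ≠ 0) (hspan : ∀ i, D (e i) = Submodule.span F {(P : Matrix ι ι F) *ᵥ Pi.single i 1})
    (hQa : ∀ i, Q ((P : Matrix ι ι F) *ᵥ Pi.single i 1) = a) (g : GL ι F) (hg : g ∈ decompositionStabilizer D)
    (hgQ : ∀ v, Q ((g : Matrix ι ι F) *ᵥ v) = Q v) (F₀ : Subfield F) :
    ∀ i j, (((P⁻¹ * g * P : GL ι F)) : Matrix ι ι F) i j ∈ F₀ := by
  classical
  obtain ⟨σ, hσ⟩ := hg
  intro i j
  -- column j
  set j' : ι := e.symm (σ (e j)) with hj'
  have hmem : (g : Matrix ι ι F) *ᵥ ((P : Matrix ι ι F) *ᵥ Pi.single j 1) ∈ D (e j') := by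
    rw [hj', Equiv.apply_symm_apply, ← hσ (e j)]
    refine ⟨(P : Matrix ι ι F) *ᵥ Pi.single j 1, ?_, by simp [Matrix.toLin'_apply]⟩
    rw [SetLike.mem_coe, hspan j]
    exact Submodule.mem_span_singleton_self _
  rw [hspan j', Submodule.mem_span_singleton] at hmem
  obtain ⟨c, hc⟩ := hmem
  have hc2 : c * c = 1 := by
    have h1 := hgQ ((P : Matrix ι ι F) *ᵥ Pi.single j 1)
    rw [← hc, QuadraticMap.map_smul, hQa, hQa, smul_eq_mul] at h1
    exact mul_right_cancel₀ ha (by rw [h1, one_mul])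
  have hcF : c ∈ F₀ := by
    have : (c - 1) * (c + 1) = 0 := by ring_nf; rw [pow_two, hc2]; ring
    rcases mul_eq_zero.mp this with h | h
    · rw [sub_eq_zero.mp h]; exact one_mem _
    · rw [eq_neg_of_add_eq_zero_left h]; exact neg_mem (one_mem _)
  have hcol : (((P⁻¹ * g * P : GL ι F)) : Matrix ι ι F) *ᵥ Pi.single j 1 = c • Pi.single j' 1 := by
    rw [Units.val_mul, Units.val_mul, ← Matrix.mulVec_mulVec, ← Matrix.mulVec_mulVec, ← hc, Matrix.mulVec_smul,
      Matrix.mulVec_mulVec, ← Units.val_mul, inv_mul_cancel, Units.val_one, Matrix.one_mulVec]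
  have hent : (((P⁻¹ * g * P : GL ι F)) : Matrix ι ι F) i j = (c • (Pi.single j' 1 : ι → F)) i := by
    rw [← hcol, Matrix.mulVec_single_one]
    rfl
  rw [hent, Pi.smul_apply, smul_eq_mul]
  by_cases hij : i = j'
  · subst hij
    rw [Pi.single_eq_same, mul_one]
    exact hcF
  · rw [Pi.single_eq_of_ne hij, mul_zero]
    exact zero_mem _

end Cfsg.Agent.Lib.Helper11.AschO
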