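import Cfsg.Agent.Lib.Helper11.AschO.Defs
import Cfsg.Agent.Lib.Helper77.Asch.SUBF2

/-! Ladder ASCHO, rung FS3: a finite field of non-prime order has a subfield of prime index. -/

set_option autoImplicit false

namespace Cfsg.Agent.Lib.Helper11.AschO

open Cfsg Cfsg.Geo
open scoped MatrixGroups Matrix

variable {F : Type*} [Field F]

theorem exists_prime_index [Fintype F] (hq : ¬ (Fintype.card F).Prime) :
    ∃ (F₁ : Subfield F) (r : ℕ), r.Prime ∧ Fintype.card F = Nat.card F₁ ^ r := by
  classical
  have hbot : (⊥ : Subfield F) ≠ ⊤ := by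
    intro h
    apply hq
    obtain ⟨p, hp⟩ := CharP.exists F
    haveI := hp
    haveI : Fact p.Prime := ⟨CharP.char_is_prime F p⟩
    have h1 : Nat.card (⊥ : Subfield F) = p := Subfield.card_bot F p
    rw [h] at h1
    have h2 : Nat.card (⊤ : Subfield F) = Fintype.card F := by
      rw [← Nat.card_eq_fintype_card]
      exact Nat.card_congr (Subfield.topEquiv (K := F)).toEquiv
    rw [← h2, h1]
    exact Fact.out
  obtain ⟨F₁, r, -, hr, hcard⟩ := Cfsg.Agent.Lib.Helper77.Asch.exists_prime_subfield (⊥ : Subfield F) hbot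
  exact ⟨F₁, r, hr, hcard⟩

end Cfsg.Agent.Lib.Helper11.AschO
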