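import Cfsg.Agent.Lib.Helper11.AschO.GR0

set_option autoImplicit false

namespace Cfsg.Agent.Lib.Helper11.AschO

open Cfsg Cfsg.Geo QuadraticMap
open scoped MatrixGroups Matrix

variable {ι : Type} [Fintype ι] [DecidableEq ι] {F : Type*} [Field F]

/-- GR2. -/
theorem gram_det_ne_zero (Q : QuadraticForm F (ι → F)) (hQ : (polarBilin Q).Nondegenerate) : (gram Q).det ≠ 0 := by
  intro h0
  obtain ⟨v, hv, hv0⟩ := Matrix.exists_mulVec_eq_zero_iff.2 h0
  apply hv
  apply hQ.2 v
  intro u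
  rw [polarBilin_apply_apply, polar_eq_gram, hv0, dotProduct_zero]

end Cfsg.Agent.Lib.Helper11.AschO
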