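import Cfsg.Agent.Lib.Helper11.AschO.GR0

set_option autoImplicit false

namespace Cfsg.Agent.Lib.Helper11.AschO

open Cfsg Cfsg.Geo QuadraticMap
open scoped MatrixGroups Matrix

variable {ι : Type} [Fintype ι] [DecidableEq ι] {F : Type*} [Field F]

/-- QR. -/
theorem quadRational_of_gram (h2 : (2 : F) ≠ 0) (Q : QuadraticForm F (ι → F)) (F₁ : Subfield F) (P : GL ι F)
    (h : ∀ i j, ((P : Matrix ι ι F)ᵀ * gram Q * (P : Matrix ι ι F)) i j ∈ F₁) :
    IsQuadFormRationalStructure Q F₁ P := by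
  intro u hu
  have h1 : polar Q ((P : Matrix ι ι F) *ᵥ u) ((P : Matrix ι ι F) *ᵥ u) ∈ F₁ := by
    rw [polar_mulVec]
    unfold dotProduct Matrix.mulVec dotProduct
    exact sum_mem (fun i _ => mul_mem (hu i) (sum_mem (fun j _ => mul_mem (h i j) (hu j))))
  rw [QuadraticMap.polar_self, two_smul, ← two_mul] at h1
  have h3 : (2 : F) ∈ F₁ := by
    rw [← one_add_one_eq_two]
    exact add_mem (one_mem _) (one_mem _)
  have h4 := mul_mem (inv_mem h3) h1
  rwa [inv_mul_cancel_left₀ h2] at h4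

end Cfsg.Agent.Lib.Helper11.AschO
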