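import Cfsg.Agent.Lib.Helper11.AschO.Defs

set_option autoImplicit false

namespace Cfsg.Agent.Lib.Helper11.AschO

open Cfsg Cfsg.Geo QuadraticMap
open scoped MatrixGroups Matrix

variable {ι : Type} [Fintype ι] [DecidableEq ι] {F : Type*} [Field F]

theorem resc_det_mem (F₀ : Subfield F) (M : Matrix ι ι F) (h : ∀ i j, M i j ∈ F₀) : M.det ∈ F₀ := by
  rw [Matrix.det_apply']
  exact sum_mem (fun σ _ => mul_mem (intCast_mem _ _) (prod_mem (fun i _ => h _ _)))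

/-- RESC (pure matrices). -/
theorem rescale {k : ℕ} (hc : Fintype.card ι = 2 * k + 1) (F₀ : Subfield F) (G P : Matrix ι ι F) (hP : P.det ≠ 0)
    (hd : G.det ∈ F₀) (hd0 : G.det ≠ 0) (t : F) (ht : t ≠ 0) (h : ∀ i j, t⁻¹ * (Pᵀ * G * P) i j ∈ F₀) :
    ∃ l : Fˣ, ∀ i j, (l : F) ^ 2 * (Pᵀ * G * P) i j ∈ F₀ := by
  have hJ : (t⁻¹ • (Pᵀ * G * P)).det ∈ F₀ := resc_det_mem F₀ _ (fun i j => h i j)
  have hJd : (t⁻¹ • (Pᵀ * G * P)).det = (t⁻¹) ^ (2 * k + 1) * (P.det * G.det * P.det) := by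
    rw [Matrix.det_smul, hc, Matrix.det_mul, Matrix.det_mul, Matrix.det_transpose]
  have hJ0 : (t⁻¹ • (Pᵀ * G * P)).det ≠ 0 := by
    rw [hJd]
    exact mul_ne_zero (pow_ne_zero _ (inv_ne_zero ht)) (mul_ne_zero (mul_ne_zero hP hd0) hP)
  have hl0 : t ^ k / P.det ≠ 0 := div_ne_zero (pow_ne_zero _ ht) hP
  refine ⟨Units.mk0 _ hl0, fun i j => ?_⟩
  rw [Units.val_mk0]
  have h1 : (t ^ k / P.det) ^ 2 * t = G.det / (t⁻¹ • (Pᵀ * G * P)).det := by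
    rw [hJd, inv_pow]
    field_simp
    ring
  have h2 : (t ^ k / P.det) ^ 2 * (Pᵀ * G * P) i j =
      ((t ^ k / P.det) ^ 2 * t) * (t⁻¹ * (Pᵀ * G * P) i j) := by
    field_simp
  rw [h2, h1]
  exact mul_mem (div_mem hd hJ) (h i j)

end Cfsg.Agent.Lib.Helper11.AschO
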