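import Cfsg.Agent.Lib.Helper11.AschO.Defs

set_option autoImplicit false

namespace Cfsg.Agent.Lib.Helper11.AschO

open Cfsg Cfsg.Geo QuadraticMap
open scoped MatrixGroups Matrix

variable {ι : Type} [Fintype ι] [DecidableEq ι] {F : Type*} [Field F]

/-- RG. -/
theorem mem_subfieldSubgroup_of_entries (F₀ : Subfield F) (P g : GL ι F)
    (h : ∀ i j, (((P⁻¹ * g * P : GL ι F)) : Matrix ι ι F) i j ∈ F₀) : g ∈ subfieldSubgroup F₀ P := by
  obtain ⟨M₀, hM₀⟩ : ∃ M₀ : Matrix ι ι F₀, M₀ = fun i j => ⟨_, h i j⟩ := ⟨_, rfl⟩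
  have hmap : M₀.map (F₀.subtype : F₀ →+* F) = ((P⁻¹ * g * P : GL ι F) : Matrix ι ι F) := by
    ext i j
    rw [hM₀]
    rfl
  have hdet : M₀.det ≠ 0 := by
    intro h0
    have h1 : (M₀.map (F₀.subtype : F₀ →+* F)).det = 0 := by
      rw [← RingHom.mapMatrix_apply, ← RingHom.map_det, h0, map_zero]
    rw [hmap] at h1
    have h2 := (Matrix.isUnit_iff_isUnit_det _).1 (P⁻¹ * g * P : GL ι F).isUnit
    rw [h1] at h2
    exact not_isUnit_zero h2
  unfold subfieldSubgroup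
  refine ⟨P⁻¹ * g * P, Subgroup.mem_sup_left
    ⟨Matrix.GeneralLinearGroup.mkOfDetNeZero M₀ hdet, ?_⟩, ?_⟩
  · apply Units.ext
    rw [← hmap]
    rfl
  · change P * (P⁻¹ * g * P) * P⁻¹ = g
    group

end Cfsg.Agent.Lib.Helper11.AschO
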