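import Cfsg.Agent.Lib.Helper11.AschO.Defs

set_option autoImplicit false

namespace Cfsg.Agent.Lib.Helper11.AschO

open Cfsg Cfsg.Geo QuadraticMap
open scoped MatrixGroups Matrix

variable {ι : Type} [Fintype ι] [DecidableEq ι] {F : Type*} [Field F]

theorem scp_coe (l : Fˣ) : ((scl l : GL ι F) : Matrix ι ι F) = (l : F) • (1 : Matrix ι ι F) := by
  unfold scl
  rw [Units.coe_map]
  simp [Matrix.smul_one_eq_diagonal]

theorem scp_central (l : Fˣ) (g : GL ι F) : scl l * g = g * scl l := by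
  apply Units.ext
  rw [Units.val_mul, Units.val_mul, scp_coe, Matrix.smul_mul, Matrix.mul_smul, one_mul, mul_one]

/-- SCP. -/
theorem subfieldSubgroup_scl (F₀ : Subfield F) (l : Fˣ) (P : GL ι F) :
    subfieldSubgroup F₀ (scl l * P) = subfieldSubgroup F₀ P := by
  have h : MulAut.conj (scl l * P) = MulAut.conj P := by
    ext1 g
    rw [MulAut.conj_apply, MulAut.conj_apply, mul_inv_rev, mul_assoc (scl l), mul_assoc (scl l),
      scp_central, mul_assoc, mul_assoc, mul_assoc, inv_mul_cancel, mul_one, mul_assoc]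
  unfold subfieldSubgroup
  rw [h]

/-- SCP. -/
theorem gram_scl (G : Matrix ι ι F) (l : Fˣ) (P : GL ι F) :
    ((scl l * P : GL ι F) : Matrix ι ι F)ᵀ * G * ((scl l * P : GL ι F) : Matrix ι ι F)
      = (l : F) ^ 2 • ((P : Matrix ι ι F)ᵀ * G * (P : Matrix ι ι F)) := by
  rw [Units.val_mul, scp_coe, Matrix.smul_mul, one_mul, Matrix.transpose_smul, Matrix.smul_mul,
    Matrix.smul_mul, Matrix.mul_smul, smul_smul, _root_.sq]

end Cfsg.Agent.Lib.Helper11.AschO
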