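import Cfsg.Agent.Lib.Helper11.AschO.FS1
import Cfsg.Agent.Lib.Helper11.AschO.FS2
import Cfsg.Agent.Lib.Helper11.AschO.FS3
import Cfsg.Agent.Lib.Helper11.AschO.RESC
import Cfsg.Agent.Lib.Helper11.AschO.QR
import Cfsg.Agent.Lib.Helper11.AschO.SCP
import Cfsg.Agent.Lib.Helper11.AschO.RG
import Cfsg.Agent.Lib.Helper11.AschO.GR2

/-! Ladder ASCHO, rung FS (assembly): over a non-prime field the stabiliser of an orthogonal frame lies in a subfield group. -/

set_option autoImplicit false

namespace Cfsg.Agent.Lib.Helper11.AschO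

open Cfsg Cfsg.Geo QuadraticMap
open scoped MatrixGroups Matrix

variable {ι : Type} [Fintype ι] [DecidableEq ι] {F : Type*} [Field F]

theorem frame_subfield [Fintype F] (h2 : (2 : F) ≠ 0) (Q : QuadraticForm F (ι → F)) (hQ : (polarBilin Q).Nondegenerate)
    (hdisc : ∀ F₀ : Subfield F, (gram Q).det ∈ F₀) {n k : ℕ} (hc : Fintype.card ι = n) (hk : n = 2 * k + 1)
    (D : Fin n → Submodule F (ι → F)) (hD : IsOrthogonalMDecomposition Q 1 D) (hq : ¬ (Fintype.card F).Prime)
    (H : Subgroup (GL ι F)) (hfix : FixesQuadForm (matrixSet H) Q) (hH : H ≤ decompositionStabilizer D) :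
    ∃ (F₁ : Subfield F) (r : ℕ) (P : GL ι F), r.Prime ∧ Fintype.card F = Nat.card F₁ ^ r ∧
      IsQuadFormRationalStructure Q F₁ P ∧ H ≤ subfieldSubgroup F₁ P := by
  classical
  obtain ⟨P, e, a, ha, hspan, hQa, horth⟩ := frame_basis Q hc D hD
  obtain ⟨F₁, r, hr, hcard⟩ := exists_prime_index (F := F) hq
  have hent : ∀ i j, ((P : Matrix ι ι F)ᵀ * gram Q * (P : Matrix ι ι F)) i j = if i = j then 2 * a else 0 := by
    intro i j
    rw [← gr0_entry ((P : Matrix ι ι F)ᵀ * gram Q * (P : Matrix ι ι F)) i j, ← polar_mulVec]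
    split_ifs with hij
    · subst hij
      rw [polar_self, hQa, nsmul_eq_mul]
      norm_num
    · exact horth i j hij
  have ht : (2 * a : F) ≠ 0 := mul_ne_zero h2 ha
  have hPdet : (P : Matrix ι ι F).det ≠ 0 := by
    have := (Matrix.isUnit_iff_isUnit_det _).mp P.isUnit
    exact this.ne_zero
  obtain ⟨l, hl⟩ := rescale (hc.trans hk) F₁ (gram Q) (P : Matrix ι ι F) hPdet (hdisc F₁) (gram_det_ne_zero Q hQ)
    (2 * a) ht (by
      intro i j
      rw [hent]
      split_ifs
      · rw [inv_mul_cancel₀ ht]; exact one_mem _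
      · rw [mul_zero]; exact zero_mem _)
  refine ⟨F₁, r, scl l * P, hr, hcard, ?_, ?_⟩
  · apply quadRational_of_gram h2
    intro i j
    rw [gram_scl, Matrix.smul_apply, smul_eq_mul]
    exact hl i j
  · rw [subfieldSubgroup_scl]
    intro g hg
    apply mem_subfieldSubgroup_of_entries
    exact frame_monomial Q D P e a ha hspan hQa g (hH hg) (fun v => hfix _ ⟨g, hg, rfl⟩ v) F₁

end Cfsg.Agent.Lib.Helper11.AschO
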