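import Cfsg.Agent.Lib.Helper11.AschO.Defs

/-! Ladder ASCHO, rung FS1: an orthogonal frame has a basis of vectors of the same norm. -/

set_option autoImplicit false

namespace Cfsg.Agent.Lib.Helper11.AschO

open Cfsg Cfsg.Geo QuadraticMap
open scoped MatrixGroups Matrix

variable {ι : Type} [Fintype ι] [DecidableEq ι] {F : Type*} [Field F]

theorem frame_basis (Q : QuadraticForm F (ι → F)) {n : ℕ} (hc : Fintype.card ι = n)
    (D : Fin n → Submodule F (ι → F)) (hD : IsOrthogonalMDecomposition Q 1 D) :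
    ∃ (P : GL ι F) (e : ι ≃ Fin n) (a : F), a ≠ 0 ∧
      (∀ i, D (e i) = Submodule.span F {(P : Matrix ι ι F) *ᵥ Pi.single i 1}) ∧
      (∀ i, Q ((P : Matrix ι ι F) *ᵥ Pi.single i 1) = a) ∧
      (∀ i j, i ≠ j → polar Q ((P : Matrix ι ι F) *ᵥ Pi.single i 1) ((P : Matrix ι ι F) *ᵥ Pi.single j 1) = 0) := by
  classical
  have hM := hD.decomp.decomp
  have hn : 0 < n := lt_of_lt_of_le (by norm_num) hM.two_le
  let i0 : Fin n := ⟨0, hn⟩
  obtain ⟨v0, hv00, -⟩ := finrank_eq_one_iff'.mp (hM.finrank_eq i0)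
  have hiso := fun i => hD.isometric i0 i
  choose E hE using hiso
  let w : Fin n → ι → F := fun i => ((E i v0 : D i) : ι → F)
  have hwD : ∀ i, w i ∈ D i := fun i => (E i v0).2
  have hw0 : ∀ i, w i ≠ 0 := by
    intro i h0
    apply hv00
    have : E i v0 = 0 := Subtype.ext h0
    simpa using this
  have hwQ : ∀ i, Q (w i) = Q (v0 : ι → F) := fun i => hE i v0
  have ha : Q (v0 : ι → F) ≠ 0 := by
    intro h0
    have hv0' : (v0 : ι → F) ≠ 0 := fun h => hv00 (Subtype.ext h)
    obtain ⟨⟨x, hx, hxne⟩, -⟩ := hD.decomp.nondegenerate i0 v0 v0.2 hv0'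
    obtain ⟨v1, hv10, hv1⟩ := finrank_eq_one_iff'.mp (hM.finrank_eq i0)
    obtain ⟨c, hc1⟩ := hv1 ⟨x, hx⟩
    obtain ⟨d, hd1⟩ := hv1 v0
    have hx' : x = c • (v1 : ι → F) := by
      have := congrArg Subtype.val hc1
      simpa using this.symm
    have hv' : (v0 : ι → F) = d • (v1 : ι → F) := by
      have := congrArg Subtype.val hd1
      simpa using this.symm
    have hd0 : d ≠ 0 := by
      rintro rfl
      exact hv0' (by rw [hv', zero_smul])
    have hQ1 : Q (v1 : ι → F) = 0 := by
      rw [hv', QuadraticMap.map_smul, smul_eq_mul] at h0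
      exact (mul_eq_zero.mp h0).resolve_left (mul_ne_zero hd0 hd0)
    apply hxne
    rw [hx', hv', polar_smul_left, polar_smul_right, polar_self, hQ1]
    simp
  let e : ι ≃ Fin n := Fintype.equivFinOfCardEq hc
  let P0 : Matrix ι ι F := Matrix.of (fun r i => w (e i) r)
  have hcol : ∀ i, P0 *ᵥ Pi.single i 1 = w (e i) := by
    intro i
    rw [Matrix.mulVec_single_one]
    rfl
  have hli : LinearIndependent F w := hM.indep.linearIndependent D hwD hw0
  have hli' : LinearIndependent F P0.col := by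
    have : P0.col = w ∘ e := by
      funext i
      rfl
    rw [this]
    exact hli.comp e e.injective
  have hunit : IsUnit P0 := Matrix.linearIndependent_cols_iff_isUnit.mp hli'
  refine ⟨hunit.unit, e, Q (v0 : ι → F), ha, ?_, ?_, ?_⟩
  · intro i
    rw [IsUnit.unit_spec, hcol]
    symm
    apply Submodule.eq_of_le_of_finrank_eq
    · rw [Submodule.span_singleton_le_iff_mem]
      exact hwD _
    · rw [finrank_span_singleton (hw0 _), hM.finrank_eq]
  · intro i
    rw [IsUnit.unit_spec, hcol]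
    exact hwQ _
  · intro i j hij
    rw [IsUnit.unit_spec, hcol, hcol]
    exact hD.decomp.orthogonal (e i) (e j) (fun h => hij (e.injective h)) _ (hwD _) _ (hwD _)

end Cfsg.Agent.Lib.Helper11.AschO
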