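import Cfsg.Agent.Lib.Helper11.AschO.Defs

/-! Ladder ASCHO (helper11), rung GCL1 (helper1): `ι`-version of the corresponding rung of ladder ASCH (helper77). -/

set_option autoImplicit false

namespace Cfsg.Agent.Lib.Helper11.AschO

open Cfsg Cfsg.Geo
open Cfsg.Agent.Lib.Helper77.Asch (NormBy MinOver)
open scoped MatrixGroups Matrix

variable {ι : Type} [Fintype ι] [DecidableEq ι] {F : Type*} [Field F]


/-- the linear map of an element of `GL` -/
noncomputable def gcl1T (g : GL ι F) : (ι → F) →ₗ[F] (ι → F) :=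
  Matrix.toLin' (g : Matrix ι ι F)

theorem gcl1T_apply (g : GL ι F) (v : ι → F) :
    gcl1T g v = (g : Matrix ι ι F) *ᵥ v := rfl

theorem gcl1T_mul (g h : GL ι F) (v : ι → F) : gcl1T (g * h) v = gcl1T g (gcl1T h v) := by
  simp [gcl1T, Matrix.toLin'_mul]

theorem gcl1T_one (v : ι → F) : gcl1T (1 : GL ι F) v = v := by
  simp [gcl1T]

theorem gcl1T_inv_apply (g : GL ι F) (v : ι → F) : gcl1T g⁻¹ (gcl1T g v) = v := by
  rw [← gcl1T_mul, inv_mul_cancel, gcl1T_one]

theorem gcl1T_apply_inv (g : GL ι F) (v : ι → F) : gcl1T g (gcl1T g⁻¹ v) = v := by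
  rw [← gcl1T_mul, mul_inv_cancel, gcl1T_one]

theorem gcl1T_injective (g : GL ι F) : Function.Injective (gcl1T g) := by
  intro v w h
  rw [← gcl1T_inv_apply g v, h, gcl1T_inv_apply]

/-- invariance of a subspace under a subgroup -/
def gcl1Inv (K : Subgroup (GL ι F)) (W : Submodule F (ι → F)) : Prop :=
  ∀ x ∈ K, ∀ w ∈ W, gcl1T x w ∈ W

theorem gcl1_irr_iff (K : Subgroup (GL ι F)) :
    ActsIrreducibly (matrixSet K) ↔ ∀ W : Submodule F (ι → F), gcl1Inv K W → W = ⊥ ∨ W = ⊤ := by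
  constructor
  · intro h W hW
    apply h W
    rintro _ ⟨x, hx, rfl⟩
    rintro _ ⟨w, hw, rfl⟩
    exact hW x hx w hw
  · intro h W hW
    apply h W
    intro x hx w hw
    exact hW _ ⟨x, hx, rfl⟩ ⟨w, hw, rfl⟩

theorem gcl1Inv_map (H N : Subgroup (GL ι F)) (hnorm : NormBy H N) (W : Submodule F (ι → F))
    (hW : gcl1Inv N W) (h : GL ι F) (hh : h ∈ H) : gcl1Inv N (W.map (gcl1T h)) := by
  rintro x hx _ ⟨w, hw, rfl⟩
  refine ⟨gcl1T (h⁻¹ * x * h) w, hW _ ?_ w hw, ?_⟩
  · have := hnorm h⁻¹ (H.inv_mem hh) x hx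
    simpa using this
  · rw [← gcl1T_mul, ← gcl1T_mul]
    congr 1
    group

theorem gcl1Inv_inf (N : Subgroup (GL ι F)) (W W' : Submodule F (ι → F))
    (hW : gcl1Inv N W) (hW' : gcl1Inv N W') : gcl1Inv N (W ⊓ W') :=
  fun x hx w hw => ⟨hW x hx w hw.1, hW' x hx w hw.2⟩

theorem gcl1Inv_sup (N : Subgroup (GL ι F)) (W W' : Submodule F (ι → F))
    (hW : gcl1Inv N W) (hW' : gcl1Inv N W') : gcl1Inv N (W ⊔ W') := by
  intro x hx w hw
  obtain ⟨a, ha, b, hb, rfl⟩ := Submodule.mem_sup.mp hw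
  rw [map_add]
  exact Submodule.add_mem _ (Submodule.mem_sup_left (hW x hx a ha)) (Submodule.mem_sup_right (hW' x hx b hb))

theorem gcl1_finrank_map (W : Submodule F (ι → F)) (h : GL ι F) :
    Module.finrank F (W.map (gcl1T h)) = Module.finrank F W :=
  (LinearEquiv.finrank_eq (Submodule.equivMapOfInjective (gcl1T h) (gcl1T_injective h) W)).symm

/-- an invariant subspace of minimal positive dimension -/
theorem gcl1_exists_min [Nonempty ι] (N : Subgroup (GL ι F)) :
    ∃ W : Submodule F (ι → F), gcl1Inv N W ∧ W ≠ ⊥ ∧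
      ∀ W' : Submodule F (ι → F), gcl1Inv N W' → W' ≠ ⊥ → Module.finrank F W ≤ Module.finrank F W' := by
  classical
  let P : ℕ → Prop := fun d => ∃ W : Submodule F (ι → F), gcl1Inv N W ∧ W ≠ ⊥ ∧ Module.finrank F W = d
  have hex : ∃ d, P d := ⟨_, ⊤, fun _ _ _ _ => trivial, top_ne_bot, rfl⟩
  obtain ⟨W, hW, hW0, hWd⟩ := Nat.find_spec hex
  refine ⟨W, hW, hW0, ?_⟩
  intro W' hW' hW'0
  rw [hWd]
  exact Nat.find_min' hex ⟨W', hW', hW'0, rfl⟩

theorem gcl1_step (H N : Subgroup (GL ι F)) (hnorm : NormBy H N)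
    (hH : ActsIrreducibly (matrixSet H)) (W : Submodule F (ι → F)) (hW : gcl1Inv N W) (hW0 : W ≠ ⊥)
    (hmin : ∀ W' : Submodule F (ι → F), gcl1Inv N W' → W' ≠ ⊥ →
      Module.finrank F W ≤ Module.finrank F W')
    (U : Submodule F (ι → F)) (hU : gcl1Inv N U) (hUt : U ≠ ⊤) :
    ∃ U' : Submodule F (ι → F), gcl1Inv N U' ∧
      Module.finrank F U' = Module.finrank F U + Module.finrank F W := by
  classical
  -- some translate is not inside U
  have h1 : ∃ h ∈ H, ¬ W.map (gcl1T h) ≤ U := by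
    by_contra hcon
    push Not at hcon
    let S : Submodule F (ι → F) := ⨆ h : H, W.map (gcl1T (h : GL ι F))
    have hSinv : gcl1Inv H S := by
      intro g hg w hw
      induction hw using Submodule.iSup_induction' with
      | mem h x hx =>
        obtain ⟨y, hy, rfl⟩ := hx
        rw [← gcl1T_mul]
        exact Submodule.mem_iSup_of_mem (⟨g * h, H.mul_mem hg h.2⟩ : H) ⟨y, hy, rfl⟩
      | zero => rw [map_zero]; exact Submodule.zero_mem _
      | add x y _ _ hx hy => rw [map_add]; exact Submodule.add_mem _ hx hy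
    have hWS : W ≤ S := by
      intro w hw
      exact Submodule.mem_iSup_of_mem (1 : H) ⟨w, hw, gcl1T_one w⟩
    rcases (gcl1_irr_iff H).mp hH S hSinv with h2 | h2
    · apply hW0
      rw [eq_bot_iff, ← h2]
      exact hWS
    · apply hUt
      rw [eq_top_iff, ← h2]
      exact iSup_le fun h => hcon h h.2
  obtain ⟨h, hh, hnot⟩ := h1
  have hWh : gcl1Inv N (W.map (gcl1T h)) := gcl1Inv_map H N hnorm W hW h hh
  have hinf : W.map (gcl1T h) ⊓ U = ⊥ := by
    by_contra hne
    have h3 := hmin _ (gcl1Inv_inf N _ _ hWh hU) hne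
    rw [← gcl1_finrank_map W h] at h3
    have h4 : W.map (gcl1T h) ⊓ U = W.map (gcl1T h) := Submodule.eq_of_le_of_finrank_le inf_le_left h3
    apply hnot
    rw [← h4]
    exact inf_le_right
  refine ⟨U ⊔ W.map (gcl1T h), gcl1Inv_sup N _ _ hU hWh, ?_⟩
  have h5 := Submodule.finrank_sup_add_finrank_inf_eq U (W.map (gcl1T h))
  rw [inf_comm, hinf, finrank_bot, add_zero, gcl1_finrank_map] at h5
  exact h5

theorem gcl1_dvd (H N : Subgroup (GL ι F)) (hnorm : NormBy H N)
    (hH : ActsIrreducibly (matrixSet H)) (W : Submodule F (ι → F)) (hW : gcl1Inv N W) (hW0 : W ≠ ⊥)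
    (hmin : ∀ W' : Submodule F (ι → F), gcl1Inv N W' → W' ≠ ⊥ →
      Module.finrank F W ≤ Module.finrank F W') : Module.finrank F W ∣ Fintype.card ι := by
  classical
  by_contra hnd
  have hd : 0 < Module.finrank F W := by
    rw [Module.finrank_pos_iff, Submodule.nontrivial_iff_ne_bot]
    exact hW0
  have key : ∀ m : ℕ, ∃ U : Submodule F (ι → F), gcl1Inv N U ∧
      Module.finrank F U = m * Module.finrank F W := by
    intro m
    induction m with
    | zero => exact ⟨⊥, fun x _ w hw => by rw [(Submodule.mem_bot F).mp hw, map_zero]; exact Submodule.zero_mem _, by simp⟩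
    | succ m ih =>
      obtain ⟨U, hU, hUm⟩ := ih
      have hUt : U ≠ ⊤ := by
        intro ht
        apply hnd
        rw [ht, finrank_top, Module.finrank_fintype_fun_eq_card] at hUm
        exact ⟨m, hUm.trans (mul_comm _ _)⟩
      obtain ⟨U', hU', hU'm⟩ := gcl1_step H N hnorm hH W hW hW0 hmin U hU hUt
      exact ⟨U', hU', by rw [hU'm, hUm]; ring⟩
  obtain ⟨U, _, hUm⟩ := key (Fintype.card ι + 1)
  have h1 : Module.finrank F U ≤ Fintype.card ι := by
    have := Submodule.finrank_le U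
    rwa [Module.finrank_fintype_fun_eq_card] at this
  have h2 : Fintype.card ι + 1 ≤ (Fintype.card ι + 1) * Module.finrank F W := Nat.le_mul_of_pos_right _ hd
  omega

theorem cliff_line (hn : (Fintype.card ι).Prime) (H N : Subgroup (GL ι F)) (hN : N ≤ H) (hnorm : NormBy H N)
    (hH : ActsIrreducibly (matrixSet H)) :
    ActsIrreducibly (matrixSet N) ∨
      ∃ v : ι → F, v ≠ 0 ∧ ∀ x ∈ N, ∃ c : F, (x : Matrix ι ι F) *ᵥ v = c • v := by
  classical
  have hne : Nonempty ι := Fintype.card_pos_iff.mp hn.pos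
  obtain ⟨W, hW, hW0, hmin⟩ := gcl1_exists_min N
  have hd := gcl1_dvd H N hnorm hH W hW hW0 hmin
  rcases (Nat.dvd_prime hn).mp hd with h1 | h1
  · right
    obtain ⟨v, hv, hspan⟩ := finrank_eq_one_iff'.mp h1
    refine ⟨v, fun h0 => hv (Subtype.ext h0), ?_⟩
    intro x hx
    obtain ⟨c, hc⟩ := hspan ⟨gcl1T x v, hW x hx v v.2⟩
    exact ⟨c, (congrArg Subtype.val hc).symm⟩
  · left
    rw [gcl1_irr_iff]
    intro W' hW'
    by_cases h0 : W' = ⊥
    · exact Or.inl h0
    right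
    have h2 := hmin W' hW' h0
    rw [h1] at h2
    apply Submodule.eq_top_of_finrank_eq
    rw [Module.finrank_fintype_fun_eq_card]
    have := Submodule.finrank_le W'
    rw [Module.finrank_fintype_fun_eq_card] at this
    omega

end Cfsg.Agent.Lib.Helper11.AschO
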