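import Cfsg.Agent.Lib.Helper11.AschO.Defs
import Cfsg.Agent.Lib.Helper11.AschO.GCL1

/-! Ladder ASCHO (helper11), rung GCL2 (helper1): `ι`-version of the corresponding rung of ladder ASCH (helper77). -/

set_option autoImplicit false

namespace Cfsg.Agent.Lib.Helper11.AschO

open Cfsg Cfsg.Geo
open Cfsg.Agent.Lib.Helper77.Asch (NormBy MinOver)
open scoped MatrixGroups Matrix

variable {ι : Type} [Fintype ι] [DecidableEq ι] {F : Type*} [Field F]


theorem gcl2T_ext {g h : GL ι F} (hgh : ∀ u, gcl1T g u = gcl1T h u) : g = h := by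
  apply Units.ext
  apply Matrix.toLin'.injective
  exact LinearMap.ext hgh

/-- the weight space -/
def gcl2V (N : Subgroup (GL ι F)) (χ : N → F) : Submodule F (ι → F) where
  carrier := {u | ∀ x : N, gcl1T (x : GL ι F) u = χ x • u}
  add_mem' := by
    intro a b ha hb x
    rw [map_add, ha x, hb x, smul_add]
  zero_mem' := by
    intro x
    rw [map_zero, smul_zero]
  smul_mem' := by
    intro c a ha x
    rw [map_smul, ha x, smul_comm]

theorem gcl2_mem (N : Subgroup (GL ι F)) (χ : N → F) (u : ι → F) :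
    u ∈ gcl2V N χ ↔ ∀ x : N, gcl1T (x : GL ι F) u = χ x • u := Iff.rfl

theorem gcl2_indep (N : Subgroup (GL ι F)) : iSupIndep (gcl2V N) := by
  classical
  rw [iSupIndep_iff_finsetSum_eq_zero_imp_eq_zero]
  intro s
  induction s using Finset.induction_on with
  | empty => intro v _ _ i hi; exact absurd hi (Finset.notMem_empty i)
  | insert χ₀ s hχ₀ ih =>
    intro u hu hsum
    rw [Finset.sum_insert hχ₀] at hsum
    have hs : ∀ χ ∈ s, u χ = 0 := by
      intro χ hχ
      have hne : χ ≠ χ₀ := fun h => hχ₀ (h ▸ hχ)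
      obtain ⟨x, hx⟩ := Function.ne_iff.mp hne
      have h1 : ∑ χ' ∈ s, (χ' x - χ₀ x) • u χ' = 0 := by
        have h2 := congrArg (gcl1T (x : GL ι F)) hsum
        rw [map_add, map_sum, map_zero, hu χ₀ (Finset.mem_insert_self _ _) x] at h2
        have h3 : ∑ χ' ∈ s, gcl1T (x : GL ι F) (u χ') = ∑ χ' ∈ s, χ' x • u χ' :=
          Finset.sum_congr rfl fun χ' hχ' => hu χ' (Finset.mem_insert_of_mem hχ') x
        rw [h3] at h2
        have h4 : χ₀ x • (u χ₀ + ∑ χ' ∈ s, u χ') = 0 := by rw [hsum, smul_zero]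
        rw [smul_add, Finset.smul_sum] at h4
        simp only [sub_smul, Finset.sum_sub_distrib]
        have h5 : ∑ χ' ∈ s, χ' x • u χ' - ∑ χ' ∈ s, χ₀ x • u χ' =
            (χ₀ x • u χ₀ + ∑ χ' ∈ s, χ' x • u χ') - (χ₀ x • u χ₀ + ∑ χ' ∈ s, χ₀ x • u χ') := by abel
        rw [h5, h2, h4, sub_zero]
      have h6 := ih (fun χ' => (χ' x - χ₀ x) • u χ')
        (fun χ' hχ' => Submodule.smul_mem _ _ (hu χ' (Finset.mem_insert_of_mem hχ'))) h1 χ hχ
      rcases smul_eq_zero.mp h6 with h7 | h7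
      · exact absurd (sub_eq_zero.mp h7) hx
      · exact h7
    intro i hi
    rcases Finset.mem_insert.mp hi with rfl | hi
    · rw [Finset.sum_eq_zero hs, add_zero] at hsum
      exact hsum
    · exact hs i hi

/-- conjugation `x ↦ h⁻¹ x h` on `N` -/
def gcl2c (H N : Subgroup (GL ι F)) (hnorm : NormBy H N) (h : H) (x : N) : N :=
  ⟨(h : GL ι F)⁻¹ * x * h, by
    have := hnorm (h : GL ι F)⁻¹ (H.inv_mem h.2) x x.2
    simpa using this⟩

theorem gcl2_map_le (H N : Subgroup (GL ι F)) (hnorm : NormBy H N) (h : H) (χ : N → F) :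
    (gcl2V N χ).map (gcl1T (h : GL ι F)) ≤ gcl2V N (χ ∘ gcl2c H N hnorm h) := by
  rintro _ ⟨u, hu, rfl⟩ x
  have h1 : gcl1T (x : GL ι F) (gcl1T (h : GL ι F) u) =
      gcl1T (h : GL ι F) (gcl1T ((gcl2c H N hnorm h x : N) : GL ι F) u) := by
    rw [← gcl1T_mul, ← gcl1T_mul]
    congr 1
    simp [gcl2c, mul_assoc]
  rw [h1, hu (gcl2c H N hnorm h x), map_smul]
  rfl

theorem gcl2_comp_inv (H N : Subgroup (GL ι F)) (hnorm : NormBy H N) (h : H) (χ : N → F) :
    (χ ∘ gcl2c H N hnorm h) ∘ gcl2c H N hnorm h⁻¹ = χ := by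
  funext x
  simp only [Function.comp]
  congr 1
  apply Subtype.ext
  simp [gcl2c, mul_assoc]

theorem gcl2_map_eq (H N : Subgroup (GL ι F)) (hnorm : NormBy H N) (h : H) (χ : N → F) :
    (gcl2V N χ).map (gcl1T (h : GL ι F)) = gcl2V N (χ ∘ gcl2c H N hnorm h) := by
  apply le_antisymm (gcl2_map_le H N hnorm h χ)
  intro w hw
  have h1 := gcl2_map_le H N hnorm h⁻¹ (χ ∘ gcl2c H N hnorm h) ⟨w, hw, rfl⟩
  rw [gcl2_comp_inv] at h1
  refine ⟨_, h1, ?_⟩
  exact gcl1T_apply_inv (h : GL ι F) w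

theorem gcl2_finrank (H N : Subgroup (GL ι F)) (hnorm : NormBy H N) (h : H) (χ : N → F) :
    Module.finrank F (gcl2V N (χ ∘ gcl2c H N hnorm h)) = Module.finrank F (gcl2V N χ) := by
  rw [← gcl2_map_eq, gcl1_finrank_map]

theorem gcl2_step (H N : Subgroup (GL ι F)) (hnorm : NormBy H N)
    (hH : ActsIrreducibly (matrixSet H)) (χ₀ : N → F) (h0 : gcl2V N χ₀ ≠ ⊥)
    (s : Finset (N → F)) (hs : (⨆ χ ∈ s, gcl2V N χ) ≠ ⊤) :
    ∃ χ' : N → F, χ' ∉ s ∧ Module.finrank F (gcl2V N χ') = Module.finrank F (gcl2V N χ₀) := by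
  classical
  by_contra hcon
  push Not at hcon
  let S : Submodule F (ι → F) := ⨆ h : H, (gcl2V N χ₀).map (gcl1T (h : GL ι F))
  have hSinv : gcl1Inv H S := by
    intro g hg w hw
    induction hw using Submodule.iSup_induction' with
    | mem h x hx =>
      obtain ⟨y, hy, rfl⟩ := hx
      rw [← gcl1T_mul]
      exact Submodule.mem_iSup_of_mem (⟨g * h, H.mul_mem hg h.2⟩ : H) ⟨y, hy, rfl⟩
    | zero => rw [map_zero]; exact Submodule.zero_mem _
    | add x y _ _ hx hy => rw [map_add]; exact Submodule.add_mem _ hx hy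
  have hWS : gcl2V N χ₀ ≤ S := by
    intro w hw
    exact Submodule.mem_iSup_of_mem (1 : H) ⟨w, hw, gcl1T_one w⟩
  rcases (gcl1_irr_iff H).mp hH S hSinv with h2 | h2
  · apply h0
    rw [eq_bot_iff, ← h2]
    exact hWS
  · apply hs
    rw [eq_top_iff, ← h2]
    refine iSup_le fun h => ?_
    rw [gcl2_map_eq H N hnorm h χ₀]
    have hmem : χ₀ ∘ gcl2c H N hnorm h ∈ s := by
      by_contra hnot
      exact hcon _ hnot (gcl2_finrank H N hnorm h χ₀)
    exact le_iSup₂_of_le (χ₀ ∘ gcl2c H N hnorm h) hmem le_rfl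

theorem gcl2_collect {n : ℕ} (hcard : Fintype.card ι = n) (H N : Subgroup (GL ι F)) (hnorm : NormBy H N)
    (hH : ActsIrreducibly (matrixSet H)) (χ₀ : N → F) (h0 : gcl2V N χ₀ ≠ ⊥) :
    ∃ s : Finset (N → F), (∀ χ ∈ s, Module.finrank F (gcl2V N χ) = Module.finrank F (gcl2V N χ₀)) ∧
      (⨆ χ ∈ s, gcl2V N χ) = ⊤ ∧ s.card * Module.finrank F (gcl2V N χ₀) = n := by
  classical
  have hm : 0 < Module.finrank F (gcl2V N χ₀) := by
    rw [Module.finrank_pos_iff, Submodule.nontrivial_iff_ne_bot]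
    exact h0
  have key : ∀ j : ℕ, ∃ s : Finset (N → F),
      (∀ χ ∈ s, Module.finrank F (gcl2V N χ) = Module.finrank F (gcl2V N χ₀)) ∧
      Module.finrank F (⨆ χ ∈ s, gcl2V N χ : Submodule F (ι → F)) =
        s.card * Module.finrank F (gcl2V N χ₀) ∧
      (s.card = j ∨ (⨆ χ ∈ s, gcl2V N χ) = ⊤) := by
    intro j
    induction j with
    | zero => exact ⟨∅, by simp, by simp, Or.inl rfl⟩
    | succ j ih =>
      obtain ⟨s, hs1, hs2, hs3⟩ := ih
      by_cases htop : (⨆ χ ∈ s, gcl2V N χ) = ⊤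
      · exact ⟨s, hs1, hs2, Or.inr htop⟩
      have hcard : s.card = j := hs3.resolve_right htop
      obtain ⟨χ', hχ', hfr⟩ := gcl2_step H N hnorm hH χ₀ h0 s htop
      refine ⟨insert χ' s, ?_, ?_, Or.inl ?_⟩
      · intro χ hχ
        rcases Finset.mem_insert.mp hχ with rfl | hχ
        · exact hfr
        · exact hs1 χ hχ
      · rw [Finset.iSup_insert, Finset.card_insert_of_notMem hχ']
        have hdisj : Disjoint (gcl2V N χ') (⨆ χ ∈ (s : Set (N → F)), gcl2V N χ) :=
          (gcl2_indep N).disjoint_biSup (by simpa using hχ')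
        have hinf : gcl2V N χ' ⊓ (⨆ χ ∈ s, gcl2V N χ) = ⊥ := by
          have := hdisj.eq_bot
          simpa using this
        have h5 := Submodule.finrank_sup_add_finrank_inf_eq (gcl2V N χ') (⨆ χ ∈ s, gcl2V N χ)
        rw [hinf, finrank_bot, add_zero, hs2, hfr] at h5
        rw [h5]
        ring
      · rw [Finset.card_insert_of_notMem hχ', hcard]
  obtain ⟨s, hs1, hs2, hs3⟩ := key (n + 1)
  have hle : Module.finrank F (⨆ χ ∈ s, gcl2V N χ : Submodule F (ι → F)) ≤ n := by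
    have := Submodule.finrank_le (⨆ χ ∈ s, gcl2V N χ : Submodule F (ι → F))
    rwa [Module.finrank_fintype_fun_eq_card, hcard] at this
  have htop : (⨆ χ ∈ s, gcl2V N χ) = ⊤ := by
    rcases hs3 with h | h
    · exfalso
      rw [hs2, h] at hle
      have h2 : n + 1 ≤ (n + 1) * Module.finrank F (gcl2V N χ₀) := Nat.le_mul_of_pos_right _ hm
      omega
    · exact h
  refine ⟨s, hs1, htop, ?_⟩
  rw [← hs2, htop, finrank_top, Module.finrank_fintype_fun_eq_card, hcard]

theorem cliff_decomp {n : ℕ} (hc : Fintype.card ι = n) (hn : n.Prime) (H N : Subgroup (GL ι F)) (hN : N ≤ H)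
    (hnorm : NormBy H N) (hH : ActsIrreducibly (matrixSet H)) (v : ι → F) (hv : v ≠ 0)
    (hev : ∀ x ∈ N, ∃ c : F, (x : Matrix ι ι F) *ᵥ v = c • v) :
    N ≤ scalars ι F ∨
      ((∀ x ∈ N, ∀ y ∈ N, x * y = y * x) ∧
        ∃ (D : Fin n → Submodule F (ι → F)) (χ : Fin n → GL ι F → F), IsMDecomposition 1 D ∧ H ≤ decompositionStabilizer D ∧
          (∀ i, ∀ u ∈ D i, ∀ x ∈ N, (x : Matrix ι ι F) *ᵥ u = χ i x • u) ∧
          (∀ i j, i ≠ j → ∃ x ∈ N, χ i x ≠ χ j x)) := by
  classical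
  choose! c hcv using hev
  let χ₀ : N → F := fun x => c x
  have hvmem : v ∈ gcl2V N χ₀ := fun x => hcv x x.2
  have h0 : gcl2V N χ₀ ≠ ⊥ := by
    intro h
    rw [h] at hvmem
    exact hv ((Submodule.mem_bot F).mp hvmem)
  obtain ⟨s, hs1, hs2, hs3⟩ := gcl2_collect hc H N hnorm hH χ₀ h0
  rcases (Nat.dvd_prime hn).mp ⟨_, hs3.symm⟩ with h1 | h1
  · left
    obtain ⟨χ, rfl⟩ := Finset.card_eq_one.mp h1
    have htop : gcl2V N χ = ⊤ := by simpa using hs2
    intro x hx
    rw [mem_scalars_iff]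
    have hall : ∀ u, gcl1T x u = χ ⟨x, hx⟩ • u := by
      intro u
      have hu : u ∈ gcl2V N χ := by rw [htop]; trivial
      exact hu ⟨x, hx⟩
    have hne : χ ⟨x, hx⟩ ≠ 0 := by
      intro h0'
      apply hv
      apply gcl1T_injective x
      rw [hall, hall, h0']
      simp
    refine ⟨Units.mk0 _ hne, ?_⟩
    apply Matrix.toLin'.injective
    apply LinearMap.ext
    intro u
    have h2 : Matrix.toLin' (x : Matrix ι ι F) u = gcl1T x u := rfl
    rw [h2, hall]
    simp [Matrix.toLin'_apply, Matrix.smul_mulVec]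
  · right
    have hm : Module.finrank F (gcl2V N χ₀) = 1 := by
      rw [h1] at hs3
      exact Nat.eq_of_mul_eq_mul_left hn.pos (by rw [hs3, mul_one])
    constructor
    · intro x hx y hy
      apply gcl2T_ext
      intro u
      rw [gcl1T_mul, gcl1T_mul]
      have hle : (⨆ χ ∈ s, gcl2V N χ) ≤ LinearMap.eqLocus (gcl1T x ∘ₗ gcl1T y) (gcl1T y ∘ₗ gcl1T x) := by
        refine iSup₂_le fun χ _ => ?_
        intro w hw
        rw [LinearMap.mem_eqLocus, LinearMap.comp_apply, LinearMap.comp_apply]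
        have hwx : gcl1T x w = χ ⟨x, hx⟩ • w := hw ⟨x, hx⟩
        have hwy : gcl1T y w = χ ⟨y, hy⟩ • w := hw ⟨y, hy⟩
        rw [hwx, hwy, map_smul, map_smul, hwx, hwy, smul_comm]
      have hu : u ∈ (⨆ χ ∈ s, gcl2V N χ) := by rw [hs2]; trivial
      exact hle hu
    · let e : Fin n ≃ s := (Finset.equivFinOfCardEq h1).symm
      refine ⟨fun i => gcl2V N (e i : N → F),
        fun i x => if hx : x ∈ N then (e i : N → F) ⟨x, hx⟩ else 0, ?_, ?_, ?_, ?_⟩
      · refine ⟨hn.two_le, one_pos, ?_, ?_, ?_⟩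
        · intro i
          rw [hs1 _ (e i).2, hm]
        · exact (gcl2_indep N).comp (f := fun i => (e i : N → F))
            (fun i j hij => e.injective (Subtype.ext hij))
        · rw [eq_top_iff, ← hs2]
          refine iSup₂_le fun χ hχ => ?_
          refine le_iSup_of_le (e.symm ⟨χ, hχ⟩) ?_
          simp
      · intro g hg
        have hmem : ∀ χ : s, (χ : N → F) ∘ gcl2c H N hnorm ⟨g, hg⟩ ∈ s := by
          intro χ
          by_contra hnot
          have hdisj : Disjoint (gcl2V N ((χ : N → F) ∘ gcl2c H N hnorm ⟨g, hg⟩))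
              (⨆ χ ∈ (s : Set (N → F)), gcl2V N χ) :=
            (gcl2_indep N).disjoint_biSup (by simpa using hnot)
          have h3 : (⨆ χ ∈ (s : Set (N → F)), gcl2V N χ) = ⊤ := by simpa using hs2
          rw [h3, disjoint_top] at hdisj
          have h4 := gcl2_finrank H N hnorm ⟨g, hg⟩ (χ : N → F)
          rw [hdisj, finrank_bot, hs1 _ χ.2, hm] at h4
          exact absurd h4 (by norm_num)
        let φ : s → s := fun χ => ⟨(χ : N → F) ∘ gcl2c H N hnorm ⟨g, hg⟩, hmem χ⟩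
        have hφinj : Function.Injective φ := by
          intro χ χ' h
          apply Subtype.ext
          have h5 : (χ : N → F) ∘ gcl2c H N hnorm ⟨g, hg⟩ = (χ' : N → F) ∘ gcl2c H N hnorm ⟨g, hg⟩ :=
            congrArg Subtype.val h
          rw [← gcl2_comp_inv H N hnorm ⟨g, hg⟩ (χ : N → F), h5, gcl2_comp_inv]
        have hφbij : Function.Bijective φ := Finite.injective_iff_bijective.mp hφinj
        refine ⟨(e.trans (Equiv.ofBijective φ hφbij)).trans e.symm, ?_⟩
        intro i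
        have h6 := gcl2_map_eq H N hnorm ⟨g, hg⟩ (e i : N → F)
        simp only [Equiv.trans_apply, Equiv.apply_symm_apply, Equiv.ofBijective_apply]
        exact h6
      · intro i u hu x hx
        beta_reduce
        rw [dif_pos hx]
        exact hu ⟨x, hx⟩
      · intro i j hij
        have hne : (e i : N → F) ≠ (e j : N → F) := fun h => hij (e.injective (Subtype.ext h))
        obtain ⟨x, hx⟩ := Function.ne_iff.mp hne
        refine ⟨x, x.2, ?_⟩
        beta_reduce
        rw [dif_pos x.2, dif_pos x.2]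
        exact hx

end Cfsg.Agent.Lib.Helper11.AschO
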