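import Cfsg.Agent.Lib.Helper11.AschO.Defs

/-! Ladder ASCHO (helper11), rung GMONO (helper1): `ι`-version of the corresponding rung of ladder ASCH (helper77). -/

set_option autoImplicit false

namespace Cfsg.Agent.Lib.Helper11.AschO

open Cfsg Cfsg.Geo
open Cfsg.Agent.Lib.Helper77.Asch (NormBy MinOver)
open scoped MatrixGroups Matrix

variable {ι : Type} [Fintype ι] [DecidableEq ι] {F : Type*} [Field F]

theorem subfieldSubgroup_mono {F₀ F₁ : Subfield F} (h : F₀ ≤ F₁) (P : GL ι F) :
    subfieldSubgroup F₀ P ≤ subfieldSubgroup F₁ P := by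
  unfold subfieldSubgroup
  apply Subgroup.map_mono
  apply sup_le_sup_right
  rintro _ ⟨g, rfl⟩
  refine ⟨Matrix.GeneralLinearGroup.map (Subfield.inclusion h) g, ?_⟩
  ext i j
  rfl

end Cfsg.Agent.Lib.Helper11.AschO
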