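import Cfsg.Agent.Lib.Helper11.AschO.Defs

set_option autoImplicit false

namespace Cfsg.Agent.Lib.Helper11.AschO

open Cfsg Cfsg.Geo QuadraticMap
open scoped MatrixGroups Matrix

variable {ι : Type} [Fintype ι] [DecidableEq ι] {F : Type*} [Field F]

theorem gr0_gram_eq (Q : QuadraticForm F (ι → F)) :
    gram Q = LinearMap.BilinForm.toMatrix' (polarBilin Q) := by
  ext i j
  rw [LinearMap.BilinForm.toMatrix'_apply]
  rfl

/-- GR0. -/
theorem polar_eq_gram (Q : QuadraticForm F (ι → F)) (u v : ι → F) :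
    polar Q u v = u ⬝ᵥ (gram Q *ᵥ v) := by
  rw [gr0_gram_eq, ← Matrix.toBilin'_apply', Matrix.toBilin'_toMatrix']
  rfl

/-- GR0. -/
theorem polar_mulVec (Q : QuadraticForm F (ι → F)) (P : Matrix ι ι F) (u v : ι → F) :
    polar Q (P *ᵥ u) (P *ᵥ v) = u ⬝ᵥ ((Pᵀ * gram Q * P) *ᵥ v) := by
  rw [polar_eq_gram, ← Matrix.mulVec_mulVec, ← Matrix.mulVec_mulVec, Matrix.dotProduct_mulVec u Pᵀ,
    Matrix.vecMul_transpose]

theorem gr0_entry (M : Matrix ι ι F) (i j : ι) :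
    (Pi.single i 1 : ι → F) ⬝ᵥ (M *ᵥ Pi.single j 1) = M i j := by
  simp

end Cfsg.Agent.Lib.Helper11.AschO
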