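import Cfsg.Agent.Lib.Helper11.AschO.GR0

set_option autoImplicit false

namespace Cfsg.Agent.Lib.Helper11.AschO

open Cfsg Cfsg.Geo QuadraticMap
open scoped MatrixGroups Matrix

variable {ι : Type} [Fintype ι] [DecidableEq ι] {F : Type*} [Field F]

/-- GR1. -/
theorem gram_invariant (Q : QuadraticForm F (ι → F)) (s : Matrix ι ι F) (hs : ∀ v, Q (s *ᵥ v) = Q v) :
    sᵀ * gram Q * s = gram Q := by
  ext i j
  rw [← gr0_entry (sᵀ * gram Q * s) i j, ← polar_mulVec, QuadraticMap.polar, ← Matrix.mulVec_add, hs,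
    hs, hs]
  rfl

end Cfsg.Agent.Lib.Helper11.AschO
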