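import Cfsg.Agent.Lib.Helper11.AschO.Defs

/-! Ladder ASCHO (helper11), rung GRED (helper1): `ι`-version of the corresponding rung of ladder ASCH (helper77). -/

set_option autoImplicit false

namespace Cfsg.Agent.Lib.Helper11.AschO

open Cfsg Cfsg.Geo
open Cfsg.Agent.Lib.Helper77.Asch (NormBy MinOver)
open scoped MatrixGroups Matrix

variable {ι : Type} [Fintype ι] [DecidableEq ι] {F : Type*} [Field F]


/-- RED. -/
theorem red (H : Subgroup (GL ι F)) (h : ¬ ActsIrreducibly (matrixSet H)) :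
    ∃ W : Submodule F (ι → F), W ≠ ⊥ ∧ W ≠ ⊤ ∧ H ≤ subspaceStabilizer W := by
  unfold ActsIrreducibly at h
  push Not at h
  obtain ⟨W, hW, hb, ht⟩ := h
  have hinv : ∀ g ∈ H, ∀ v ∈ W, (g : Matrix ι ι F) *ᵥ v ∈ W := by
    intro g hg v hv
    have := hW (g : Matrix ι ι F) ⟨g, hg, rfl⟩ (Submodule.mem_map_of_mem hv)
    rwa [Matrix.toLin'_apply] at this
  refine ⟨W, hb, ht, fun g hg v => ⟨fun hv => hinv g hg v hv, fun hv => ?_⟩⟩
  have h1 := hinv g⁻¹ (H.inv_mem hg) _ hv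
  change ((g⁻¹ : GL ι F) : Matrix ι ι F) *ᵥ
    ((g : Matrix ι ι F) *ᵥ v) ∈ W at h1
  rw [Matrix.mulVec_mulVec, ← Units.val_mul, inv_mul_cancel, Units.val_one,
    Matrix.one_mulVec] at h1
  exact h1

end Cfsg.Agent.Lib.Helper11.AschO
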