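import Cfsg.Agent.Lib.Helper11.AschO.Defs

/-! Ladder ASCHO, rung O1. -/

set_option autoImplicit false
set_option linter.unusedSectionVars false

namespace Cfsg.Agent.Lib.Helper11.AschO

open Cfsg Cfsg.Geo QuadraticMap
open scoped MatrixGroups Matrix

variable {ι : Type} [Fintype ι] [DecidableEq ι] {F : Type*} [Field F]

theorem omega_fixes (Q : QuadraticForm F (ι → F)) : FixesQuadForm (matrixSet (omegaGL Q)) Q := by
  rintro _ ⟨g, ⟨x, -, rfl⟩, rfl⟩ v
  exact x.2 v v

end Cfsg.Agent.Lib.Helper11.AschO
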