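import Cfsg.Agent.Lib.Helper11.AschO.Defs

/-! Ladder ASCHO, rung O2. -/

set_option autoImplicit false
set_option linter.unusedSectionVars false

namespace Cfsg.Agent.Lib.Helper11.AschO

open Cfsg Cfsg.Geo QuadraticMap
open scoped MatrixGroups Matrix

variable {ι : Type} [Fintype ι] [DecidableEq ι] {F : Type*} [Field F]

theorem omega_det (Q : QuadraticForm F (ι → F)) (g : GL ι F) (hg : g ∈ omegaGL Q) :
    (g : Matrix ι ι F).det = 1 := by
  obtain ⟨x, hx, rfl⟩ := hg
  let f : ↥(isometryGroup F Q) →* Fˣ := (Matrix.GeneralLinearGroup.det).comp (isometryGroup F Q).subtype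
  have h1 : f x = 1 := Abelianization.commutator_subset_ker f hx
  have := congrArg Units.val h1
  simpa [f] using this

end Cfsg.Agent.Lib.Helper11.AschO
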