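import Cfsg.Agent.Lib.Helper11.AschO.O1
import Cfsg.Agent.Lib.Helper11.AschO.O2

/-! Ladder ASCHO, rung O3. -/

set_option autoImplicit false
set_option linter.unusedSectionVars false

namespace Cfsg.Agent.Lib.Helper11.AschO

open Cfsg Cfsg.Geo QuadraticMap
open scoped MatrixGroups Matrix

variable {ι : Type} [Fintype ι] [DecidableEq ι] {F : Type*} [Field F]

theorem o3_exists_nonsing (Q : QuadraticForm F (ι → F)) (hQ : (polarBilin Q).Nondegenerate) [Nonempty ι] :
    ∃ v, Q v ≠ 0 := by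
  by_contra hcon
  push Not at hcon
  obtain ⟨i⟩ := ‹Nonempty ι›
  have h0 : (Pi.single i 1 : ι → F) = 0 := by
    apply hQ.1
    intro y
    rw [polarBilin_apply_apply]
    unfold polar
    rw [hcon, hcon, hcon]; ring
  have := congrFun h0 i
  simp at this

theorem omega_inf_scalars (Q : QuadraticForm F (ι → F)) (hQ : (polarBilin Q).Nondegenerate) [Nonempty ι]
    (hodd : Odd (Fintype.card ι)) : omegaGL Q ⊓ scalars ι F = ⊥ := by
  rw [eq_bot_iff]
  rintro g ⟨hg1, hg2⟩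
  obtain ⟨c, hc⟩ := (mem_scalars_iff g).1 hg2
  obtain ⟨v, hv⟩ := o3_exists_nonsing Q hQ
  have h1 : Q ((g : Matrix ι ι F) *ᵥ v) = Q v := omega_fixes Q _ ⟨g, hg1, rfl⟩ v
  rw [hc, Matrix.smul_mulVec, Matrix.one_mulVec, QuadraticMap.map_smul, smul_eq_mul] at h1
  have h2 : (c : F) * c = 1 := mul_right_cancel₀ hv (by rw [h1, one_mul])
  have h3 := omega_det Q g hg1
  rw [hc, Matrix.det_smul, Matrix.det_one, mul_one] at h3
  obtain ⟨k, hk⟩ := hodd
  rw [hk, pow_succ, pow_mul, pow_two, h2, one_pow, one_mul] at h3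
  rw [Subgroup.mem_bot]
  apply Units.ext
  rw [hc, h3, one_smul]; rfl

end Cfsg.Agent.Lib.Helper11.AschO
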