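import Cfsg.Agent.Lib.Helper11.AschO.WIT
import Cfsg.Agent.Lib.Helper49.OrthIrr

/-! Ladder ASCHO, rung P1. -/

set_option autoImplicit false
set_option linter.unusedSectionVars false

namespace Cfsg.Agent.Lib.Helper11.AschO

open Cfsg Cfsg.Geo QuadraticMap
open scoped MatrixGroups Matrix

variable {ι : Type} [Fintype ι] [DecidableEq ι] {F : Type*} [Field F]

theorem omega_irr [Fintype F] (Q : QuadraticForm F (ι → F)) (hQ : (polarBilin Q).Nondegenerate)
    (h7 : 7 ≤ Fintype.card ι) : ActsIrreducibly (matrixSet (omegaGL Q)) := by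
  intro S hS
  by_cases hS0 : S = ⊥
  · exact Or.inl hS0
  right
  have hfr : Module.finrank F (ι → F) = Fintype.card ι := Module.finrank_fintype_fun_eq_card F
  apply Cfsg.Agent.Lib.Helper49.eq_top_of_OG_invariant Q hQ S hS0
  · intro g s hs
    by_cases hs0 : s = 0
    · rw [hs0, map_zero]; exact S.zero_mem
    have hgs0 : g.1 s ≠ 0 := by
      intro h0
      exact hs0 (g.1.injective (by rw [h0, map_zero]))
    obtain ⟨k, hk, hks⟩ := omega_map_vec Q hQ h7 s (g.1 s) hs0 hgs0 (g.2 s).symm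
    rw [← hks]
    apply hS _ ⟨k, hk, rfl⟩
    exact ⟨s, hs, by rw [Matrix.toLin'_apply]⟩
  · rintro ⟨-, h2, -⟩
    rw [hfr] at h2
    omega

theorem not_le_subspace [Fintype F] (Q : QuadraticForm F (ι → F)) (hQ : (polarBilin Q).Nondegenerate)
    (h7 : 7 ≤ Fintype.card ι) (W : Submodule F (ι → F)) (h0 : W ≠ ⊥) (h1 : W ≠ ⊤) :
    ¬ omegaGL Q ≤ subspaceStabilizer W := by
  intro hle
  rcases omega_irr Q hQ h7 W (by
    rintro _ ⟨g, hg, rfl⟩ _ ⟨w, hw, rfl⟩
    rw [Matrix.toLin'_apply]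
    exact (hle hg w).1 hw) with h | h
  · exact h0 h
  · exact h1 h

end Cfsg.Agent.Lib.Helper11.AschO
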