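import Cfsg.Agent.Lib.Helper11.AschO.WIT

/-! Ladder ASCHO, rung P2. -/

set_option autoImplicit false
set_option linter.unusedSectionVars false

namespace Cfsg.Agent.Lib.Helper11.AschO

open Cfsg Cfsg.Geo QuadraticMap
open scoped MatrixGroups Matrix

variable {ι : Type} [Fintype ι] [DecidableEq ι] {F : Type*} [Field F]

theorem not_le_decomp [Fintype F] (h2 : (2 : F) ≠ 0) (Q : QuadraticForm F (ι → F)) (hQ : (polarBilin Q).Nondegenerate)
    (h7 : 7 ≤ Fintype.card ι) {n : ℕ} (hc : Fintype.card ι = n) (D : Fin n → Submodule F (ι → F))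
    (hD : IsOrthogonalMDecomposition Q 1 D) : ¬ omegaGL Q ≤ decompositionStabilizer D := by
  intro hle
  have hn : 7 ≤ n := hc ▸ h7
  let i0 : Fin n := ⟨0, by omega⟩
  let i1 : Fin n := ⟨1, by omega⟩
  let i2 : Fin n := ⟨2, by omega⟩
  let i3 : Fin n := ⟨3, by omega⟩
  have n01 : i0 ≠ i1 := by simp [i0, i1, Fin.ext_iff]
  have n02 : i0 ≠ i2 := by simp [i0, i2, Fin.ext_iff]
  have n03 : i0 ≠ i3 := by simp [i0, i3, Fin.ext_iff]
  have n12 : i1 ≠ i2 := by simp [i1, i2, Fin.ext_iff]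
  have n13 : i1 ≠ i3 := by simp [i1, i3, Fin.ext_iff]
  have n23 : i2 ≠ i3 := by simp [i2, i3, Fin.ext_iff]
  have hfr := hD.decomp.decomp.finrank_eq i0
  obtain ⟨v0', hv0'⟩ : ∃ v : D i0, v ≠ 0 := by
    haveI : Nontrivial (D i0) := Module.nontrivial_of_finrank_pos (R := F) (by rw [hfr]; exact one_pos)
    exact exists_ne 0
  choose e he using fun j => hD.isometric i0 j
  let v : Fin n → (ι → F) := fun j => (e j v0' : ι → F)
  have hvD : ∀ j, v j ∈ D j := fun j => (e j v0').2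
  have hv0 : ∀ j, v j ≠ 0 := by
    intro j h0
    apply hv0'
    apply (e j).injective
    rw [map_zero]
    exact Subtype.ext h0
  have hQv : ∀ j, Q (v j) = Q (v0' : ι → F) := fun j => he j v0'
  have horth : ∀ i j, i ≠ j → polar Q (v i) (v j) = 0 :=
    fun i j hij => hD.decomp.orthogonal i j hij _ (hvD i) _ (hvD j)
  have hself : ∀ j, polar Q (v j) (v j) ≠ 0 := by
    intro j
    obtain ⟨⟨x, hx, hxv⟩, -⟩ := hD.decomp.nondegenerate j (v j) (hvD j) (hv0 j)
    obtain ⟨c, hcx⟩ := (finrank_eq_one_iff_of_nonzero' (⟨v j, hvD j⟩ : D j)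
      (by intro h0; exact hv0 j (congrArg Subtype.val h0))).1 (hD.decomp.decomp.finrank_eq j) ⟨x, hx⟩
    have hx' : x = c • v j := (congrArg Subtype.val hcx).symm
    rw [hx', polar_smul_left] at hxv
    intro h0
    apply hxv
    rw [h0, smul_zero]
  set w : ι → F := v i0 + v i1 + v i2 + v i3 with hw
  have hp0 : polar Q w (v i0) = polar Q (v i0) (v i0) := by
    rw [hw, polar_add_left, polar_add_left, polar_add_left, horth i1 i0 n01.symm, horth i2 i0 n02.symm,
      horth i3 i0 n03.symm]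
    ring
  have hp1 : polar Q w (v i1) = polar Q (v i1) (v i1) := by
    rw [hw, polar_add_left, polar_add_left, polar_add_left, horth i0 i1 n01, horth i2 i1 n12.symm,
      horth i3 i1 n13.symm]
    ring
  have hw0 : w ≠ 0 := by
    intro h0
    apply hself i0
    rw [← hp0, h0, polar_zero_left]
  have hQw : Q ((2 : F) • v i0) = Q w := by
    rw [hw, QuadraticMap.map_add Q, QuadraticMap.map_add Q, QuadraticMap.map_add Q, polar_add_left,
      polar_add_left, polar_add_left, horth i0 i1 n01, horth i0 i2 n02, horth i1 i2 n12,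
      horth i0 i3 n03, horth i1 i3 n13, horth i2 i3 n23, QuadraticMap.map_smul, hQv, hQv, hQv, hQv,
      smul_eq_mul]
    ring
  obtain ⟨g, hg, hgw⟩ := omega_map_vec Q hQ h7 ((2 : F) • v i0) w (smul_ne_zero h2 (hv0 i0)) hw0 hQw
  obtain ⟨σ, hσ⟩ := hle hg
  have hwD : w ∈ D (σ i0) := by
    rw [← hσ i0, ← hgw]
    exact ⟨(2 : F) • v i0, (D i0).smul_mem _ (hvD i0), by rw [Matrix.toLin'_apply]⟩
  by_cases hs : σ i0 = i0
  · apply hself i1
    rw [← hp1]
    exact hD.decomp.orthogonal (σ i0) i1 (by rw [hs]; exact n01) _ hwD _ (hvD i1)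
  · apply hself i0
    rw [← hp0]
    exact hD.decomp.orthogonal (σ i0) i0 hs _ hwD _ (hvD i0)

end Cfsg.Agent.Lib.Helper11.AschO
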