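import Cfsg.Agent.Lib.Helper11.AschO.Defs

/-! Ladder ASCHO, rung R1. -/

set_option autoImplicit false

namespace Cfsg.Agent.Lib.Helper11.AschO

open Cfsg Cfsg.Geo QuadraticMap
open scoped MatrixGroups Matrix

variable {ι : Type} [Fintype ι] [DecidableEq ι] {F : Type*} [Field F]

theorem r1_mem_stab (W : Submodule F (ι → F)) (g : GL ι F) :
    g ∈ subspaceStabilizer W ↔ ∀ v, v ∈ W ↔ (g : Matrix ι ι F) *ᵥ v ∈ W := Iff.rfl

theorem r1_polar (Q : QuadraticForm F (ι → F)) (s : Matrix ι ι F) (hs : ∀ v, Q (s *ᵥ v) = Q v)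
    (u v : ι → F) : polar Q (s *ᵥ u) (s *ᵥ v) = polar Q u v := by
  unfold polar
  rw [← Matrix.mulVec_add, hs, hs, hs]

theorem r1_mem_perp (Q : QuadraticForm F (ι → F)) (W : Submodule F (ι → F)) (v : ι → F) :
    v ∈ perp Q W ↔ ∀ n ∈ W, polar Q n v = 0 := by
  unfold perp
  rw [LinearMap.BilinForm.mem_orthogonal_iff]
  rfl

theorem r1_inv_mulVec (g : GL ι F) (v : ι → F) :
    (g : Matrix ι ι F) *ᵥ (((g⁻¹ : GL ι F) : Matrix ι ι F) *ᵥ v) = v := by
  rw [Matrix.mulVec_mulVec, ← Units.val_mul, mul_inv_cancel, Units.val_one, Matrix.one_mulVec]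

theorem stab_perp (Q : QuadraticForm F (ι → F)) (H : Subgroup (GL ι F)) (hfix : FixesQuadForm (matrixSet H) Q)
    (W : Submodule F (ι → F)) (hW : H ≤ subspaceStabilizer W) : H ≤ subspaceStabilizer (perp Q W) := by
  intro g hg
  rw [r1_mem_stab]
  have hs : ∀ v, Q ((g : Matrix ι ι F) *ᵥ v) = Q v := hfix _ ⟨g, hg, rfl⟩
  have hgW := (r1_mem_stab W g).mp (hW hg)
  have hgW' := (r1_mem_stab W g⁻¹).mp (hW (H.inv_mem hg))
  intro v
  rw [r1_mem_perp, r1_mem_perp]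
  constructor
  · intro h n hn
    have h1 := h _ ((hgW' n).mp hn)
    rw [← r1_polar Q _ hs, r1_inv_mulVec] at h1
    exact h1
  · intro h n hn
    rw [← r1_polar Q _ hs]
    exact h _ ((hgW n).mp hn)

theorem stab_inf (H : Subgroup (GL ι F)) (W W' : Submodule F (ι → F)) (hW : H ≤ subspaceStabilizer W)
    (hW' : H ≤ subspaceStabilizer W') : H ≤ subspaceStabilizer (W ⊓ W') := by
  intro g hg
  rw [r1_mem_stab]
  intro v
  rw [Submodule.mem_inf, Submodule.mem_inf, ← (r1_mem_stab W g).mp (hW hg) v,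
    ← (r1_mem_stab W' g).mp (hW' hg) v]

end Cfsg.Agent.Lib.Helper11.AschO
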