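import Cfsg.Agent.Lib.Helper11.AschO.R1

/-! Ladder ASCHO, rung R2. -/

set_option autoImplicit false

namespace Cfsg.Agent.Lib.Helper11.AschO

open Cfsg Cfsg.Geo QuadraticMap
open scoped MatrixGroups Matrix

variable {ι : Type} [Fintype ι] [DecidableEq ι] {F : Type*} [Field F]

theorem rad_singular (h2 : (2 : F) ≠ 0) (Q : QuadraticForm F (ι → F)) (W : Submodule F (ι → F)) :
    IsTotallySingularQuad Q (W ⊓ perp Q W) := by
  intro w hw
  have h1 : polar Q w w = 0 := (r1_mem_perp Q W w).mp hw.2 w hw.1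
  rw [QuadraticMap.polar_self] at h1
  have h3 : (2 : F) * Q w = 0 := by
    rw [← h1]; simp [two_smul, two_mul]
  exact (mul_eq_zero.mp h3).resolve_left h2

end Cfsg.Agent.Lib.Helper11.AschO
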