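import Cfsg.Agent.Lib.Helper11.AschO.R1

/-! Ladder ASCHO, rung R3. -/

set_option autoImplicit false

namespace Cfsg.Agent.Lib.Helper11.AschO

open Cfsg Cfsg.Geo QuadraticMap
open scoped MatrixGroups Matrix

variable {ι : Type} [Fintype ι] [DecidableEq ι] {F : Type*} [Field F]

theorem r3_isRefl (Q : QuadraticForm F (ι → F)) : (polarBilin Q).IsRefl := by
  intro x y h
  have h' : polar Q x y = 0 := h
  show polar Q y x = 0
  rw [polar_comm]; exact h'

theorem r3_perp_perp (Q : QuadraticForm F (ι → F)) (hQ : (polarBilin Q).Nondegenerate)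
    (W : Submodule F (ι → F)) : perp Q (perp Q W) = W :=
  LinearMap.BilinForm.orthogonal_orthogonal hQ (r3_isRefl Q) W

theorem r3_nondeg (Q : QuadraticForm F (ι → F)) (W : Submodule F (ι → F)) (h : W ⊓ perp Q W = ⊥) :
    IsNondegenerateOn (polar Q) W := by
  intro w hw hw0
  have key : ∃ x ∈ W, polar Q x w ≠ 0 := by
    by_contra hcon
    push Not at hcon
    have : w ∈ W ⊓ perp Q W := ⟨hw, (r1_mem_perp Q W w).mpr hcon⟩
    rw [h, Submodule.mem_bot] at this
    exact hw0 this
  obtain ⟨x, hx, hxw⟩ := key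
  exact ⟨⟨x, hx, hxw⟩, ⟨x, hx, by rw [polar_comm]; exact hxw⟩⟩

theorem nondeg_of_inf_bot (Q : QuadraticForm F (ι → F)) (hQ : (polarBilin Q).Nondegenerate)
    (W : Submodule F (ι → F)) (h : W ⊓ perp Q W = ⊥) :
    IsNondegenerateOn (polar Q) W ∧ IsNondegenerateOn (polar Q) (perp Q W) ∧
      Module.finrank F W + Module.finrank F (perp Q W) = Fintype.card ι := by
  refine ⟨r3_nondeg Q W h, r3_nondeg Q (perp Q W) ?_, ?_⟩
  · rw [r3_perp_perp Q hQ, inf_comm]; exact h
  · have h1 : Module.finrank F (perp Q W) = Module.finrank F (ι → F) - Module.finrank F W :=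
      LinearMap.BilinForm.finrank_orthogonal hQ W
    have h2 : Module.finrank F W ≤ Module.finrank F (ι → F) := Submodule.finrank_le W
    rw [Module.finrank_fintype_fun_eq_card] at h1 h2
    omega

end Cfsg.Agent.Lib.Helper11.AschO
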