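import Cfsg.Agent.Lib.Helper11.AschO.R1

/-! Ladder ASCHO, rung R4. -/

set_option autoImplicit false

namespace Cfsg.Agent.Lib.Helper11.AschO

open Cfsg Cfsg.Geo QuadraticMap
open scoped MatrixGroups Matrix

variable {ι : Type} [Fintype ι] [DecidableEq ι] {F : Type*} [Field F]

theorem r4_three [Fintype F] (hq : Fintype.card F = 3) (x : F) : x = 0 ∨ x = 1 ∨ x = -1 := by
  have h := FiniteField.pow_card x
  rw [hq] at h
  have h2 : x * ((x - 1) * (x + 1)) = 0 := by
    have : x * ((x - 1) * (x + 1)) = x ^ 3 - x := by ring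
    rw [this, h, sub_self]
  rcases mul_eq_zero.mp h2 with h3 | h3
  · exact Or.inl h3
  · rcases mul_eq_zero.mp h3 with h4 | h4
    · exact Or.inr (Or.inl (sub_eq_zero.mp h4))
    · exact Or.inr (Or.inr (eq_neg_of_add_eq_zero_left h4))

/-- a hyperbolic pair in a plus-type plane. -/
theorem r4_hyp (Q : QuadraticForm F (ι → F)) (W : Submodule F (ι → F))
    (hW : IsNondegenerateOn (polar Q) W) (hd : Module.finrank F W = 2) (hp : IsPlusTypeOn Q W) :
    ∃ e ∈ W, ∃ f ∈ W, Q e = 0 ∧ Q f = 0 ∧ polar Q e f = 1 ∧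
      ∀ w ∈ W, ∃ α β : F, w = α • e + β • f := by
  obtain ⟨U, hUW, hUs, hUd⟩ := hp
  have hU1 : Module.finrank F U = 1 := by omega
  obtain ⟨e0, he0, _⟩ := finrank_eq_one_iff'.mp hU1
  set e : ι → F := (e0 : ι → F) with he
  have heU : e ∈ U := e0.2
  have heW : e ∈ W := hUW heU
  have hene : e ≠ 0 := fun h => he0 (Subtype.ext h)
  have hQe : Q e = 0 := hUs e heU
  obtain ⟨f', hf'W, hb⟩ := (hW e heW hene).2
  set b := polar Q e f' with hbdef
  have hee : polar Q e e = 0 := by rw [polar_self, hQe, smul_zero]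
  set f'' : ι → F := f' - (Q f' / b) • e with hf''
  have hf''W : f'' ∈ W := W.sub_mem hf'W (W.smul_mem _ heW)
  have hpol'' : polar Q e f'' = b := by
    rw [hf'', polar_sub_right, polar_smul_right, hee, smul_zero, sub_zero]
  have hQf'' : Q f'' = 0 := by
    have h1 : f'' = f' + (-(Q f' / b)) • e := by rw [hf'', neg_smul, sub_eq_add_neg]
    rw [h1, QuadraticMap.map_add Q, QuadraticMap.map_smul, hQe, polar_smul_right, polar_comm, ← hbdef]
    simp only [smul_eq_mul, mul_zero, add_zero]
    field_simp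
    ring
  set f : ι → F := b⁻¹ • f'' with hf
  have hfW : f ∈ W := W.smul_mem _ hf''W
  have hQf : Q f = 0 := by rw [hf, QuadraticMap.map_smul, hQf'', smul_zero]
  have hef : polar Q e f = 1 := by
    rw [hf, polar_smul_right, hpol'', smul_eq_mul, inv_mul_cancel₀ hb]
  have hff : polar Q f f = 0 := by rw [polar_self, hQf, smul_zero]
  refine ⟨e, heW, f, hfW, hQe, hQf, hef, ?_⟩
  have hli : LinearIndependent F ![e, f] := by
    rw [LinearIndependent.pair_iff]
    intro s t hst
    have h1 : polar Q e (s • e + t • f) = t := by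
      rw [polar_add_right, polar_smul_right, polar_smul_right, hee, hef]; simp
    have h2 : polar Q (s • e + t • f) f = s := by
      rw [polar_add_left, polar_smul_left, polar_smul_left, hff, hef]; simp
    rw [hst] at h1 h2
    simp only [polar_zero_right, polar_zero_left] at h1 h2
    exact ⟨h2.symm, h1.symm⟩
  have hfr : Module.finrank F (Submodule.span F (Set.range ![e, f])) = 2 := by
    rw [finrank_span_eq_card hli]; simp
  have hle : Submodule.span F (Set.range ![e, f]) ≤ W := by
    rw [Submodule.span_le]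
    rintro _ ⟨i, rfl⟩
    fin_cases i
    · exact heW
    · exact hfW
  have heq : Submodule.span F (Set.range ![e, f]) = W :=
    Submodule.eq_of_le_of_finrank_eq hle (by rw [hfr, hd])
  intro w hw
  rw [← heq] at hw
  have hr : Set.range ![e, f] = {e, f} := by
    ext x
    constructor
    · rintro ⟨i, rfl⟩
      fin_cases i
      · exact Or.inl rfl
      · exact Or.inr rfl
    · rintro (h | h)
      · exact ⟨0, h.symm⟩
      · exact ⟨1, (Set.mem_singleton_iff.mp h).symm⟩
  rw [hr, Submodule.mem_span_pair] at hw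
  obtain ⟨α, β, h⟩ := hw
  exact ⟨α, β, h.symm⟩

theorem plus_plane_three [Fintype F] (Q : QuadraticForm F (ι → F)) (W : Submodule F (ι → F)) (hq : Fintype.card F = 3)
    (hW : IsNondegenerateOn (polar Q) W) (hd : Module.finrank F W = 2) (hp : IsPlusTypeOn Q W) :
    ∃ a ∈ W, Q a = 1 ∧ ∀ w ∈ W, Q w = 1 → w = a ∨ w = -a := by
  obtain ⟨e, heW, f, hfW, hQe, hQf, hef, hall⟩ := r4_hyp Q W hW hd hp
  have hQ : ∀ α β : F, Q (α • e + β • f) = α * β := by
    intro α β
    rw [QuadraticMap.map_add Q, QuadraticMap.map_smul, QuadraticMap.map_smul, hQe, hQf,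
      polar_smul_left, polar_smul_right, hef]
    simp
  refine ⟨e + f, W.add_mem heW hfW, ?_, ?_⟩
  · have := hQ 1 1
    simpa using this
  · intro w hw hQw
    obtain ⟨α, β, rfl⟩ := hall w hw
    rw [hQ] at hQw
    rcases r4_three hq α with h | h | h
    · rw [h, zero_mul] at hQw
      exact absurd hQw zero_ne_one
    · rw [h, one_mul] at hQw
      left
      rw [h, hQw, one_smul, one_smul]
    · right
      have hβ : β = -1 := by
        rw [h] at hQw
        have : -β = 1 := by rw [← hQw]; ring
        rw [← this, neg_neg]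
      rw [h, hβ]
      simp only [neg_smul, one_smul, neg_add]

end Cfsg.Agent.Lib.Helper11.AschO
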