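import Cfsg.Agent.Lib.Helper11.AschO.R3

/-! Ladder ASCHO, rung R5. -/

set_option autoImplicit false

namespace Cfsg.Agent.Lib.Helper11.AschO

open Cfsg Cfsg.Geo QuadraticMap
open scoped MatrixGroups Matrix

variable {ι : Type} [Fintype ι] [DecidableEq ι] {F : Type*} [Field F]

theorem r5_stab_of_map (H : Subgroup (GL ι F)) (X : Submodule F (ι → F))
    (h : ∀ g ∈ H, ∀ v ∈ X, (g : Matrix ι ι F) *ᵥ v ∈ X) : H ≤ subspaceStabilizer X := by
  intro g hg
  rw [r1_mem_stab]
  intro v
  refine ⟨h g hg v, fun hv => ?_⟩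
  have h1 := h g⁻¹ (H.inv_mem hg) _ hv
  rw [Matrix.mulVec_mulVec, ← Units.val_mul, inv_mul_cancel, Units.val_one, Matrix.one_mulVec] at h1
  exact h1

theorem plus_plane_replace [Fintype F] (h2 : (2 : F) ≠ 0) (Q : QuadraticForm F (ι → F)) (hQ : (polarBilin Q).Nondegenerate)
    (H : Subgroup (GL ι F)) (hfix : FixesQuadForm (matrixSet H) Q) (W : Submodule F (ι → F))
    (hHW : H ≤ subspaceStabilizer W) (a : ι → F) (ha : a ∈ W) (hQa : Q a = 1)
    (hall : ∀ w ∈ W, Q w = 1 → w = a ∨ w = -a) :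
    ∃ W' : Submodule F (ι → F), Module.finrank F W' + 1 = Fintype.card ι ∧ IsNondegenerateOn (polar Q) W' ∧
      H ≤ subspaceStabilizer W' := by
  have ha0 : a ≠ 0 := by
    intro h
    rw [h, QuadraticMap.map_zero] at hQa
    exact zero_ne_one hQa
  set X : Submodule F (ι → F) := Submodule.span F {a} with hX
  have hHX : H ≤ subspaceStabilizer X := by
    apply r5_stab_of_map
    intro g hg v hv
    obtain ⟨c, rfl⟩ := Submodule.mem_span_singleton.mp hv
    have hga : (g : Matrix ι ι F) *ᵥ a ∈ W := ((r1_mem_stab W g).mp (hHW hg) a).mp ha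
    have hQga : Q ((g : Matrix ι ι F) *ᵥ a) = 1 := by
      rw [hfix _ ⟨g, hg, rfl⟩ a, hQa]
    rw [Matrix.mulVec_smul]
    apply X.smul_mem
    rcases hall _ hga hQga with h | h
    · rw [h]; exact Submodule.mem_span_singleton_self a
    · rw [h]; exact X.neg_mem (Submodule.mem_span_singleton_self a)
  have hinf : X ⊓ perp Q X = ⊥ := by
    rw [eq_bot_iff]
    intro w hw
    obtain ⟨c, rfl⟩ := Submodule.mem_span_singleton.mp hw.1
    have h1 : polar Q a (c • a) = 0 :=
      (r1_mem_perp Q X _).mp hw.2 a (Submodule.mem_span_singleton_self a)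
    rw [polar_smul_right, polar_self, hQa] at h1
    have h3 : c * 2 = 0 := by
      have h4 : c • (2 • (1 : F)) = c * 2 := by
        rw [smul_eq_mul, two_smul]; ring
      rw [← h4]; exact h1
    have hc : c = 0 := (mul_eq_zero.mp h3).resolve_right h2
    rw [hc, zero_smul]
    exact Submodule.zero_mem _
  obtain ⟨_, hnd, hfr⟩ := nondeg_of_inf_bot Q hQ X hinf
  refine ⟨perp Q X, ?_, hnd, stab_perp Q H hfix X hHX⟩
  have h1 : Module.finrank F X = 1 := finrank_span_singleton ha0
  omega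

end Cfsg.Agent.Lib.Helper11.AschO
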