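import Cfsg.Agent.Lib.Helper11.AschO.SF1
import Cfsg.Agent.Lib.Helper11.AschO.RESC
import Cfsg.Agent.Lib.Helper11.AschO.QR
import Cfsg.Agent.Lib.Helper11.AschO.SCP
import Cfsg.Agent.Lib.Helper11.AschO.GSUBF
import Cfsg.Agent.Lib.Helper11.AschO.GMONO
import Cfsg.Agent.Lib.Helper11.AschO.GR1
import Cfsg.Agent.Lib.Helper11.AschO.GR2
import Cfsg.Agent.Lib.Helper77.Asch.SUBF2

/-! Ladder ASCHO, rung SF: the subfield case (assembly). -/

set_option autoImplicit false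

namespace Cfsg.Agent.Lib.Helper11.AschO

open Cfsg Cfsg.Geo QuadraticMap
open scoped MatrixGroups Matrix

variable {ι : Type} [Fintype ι] [DecidableEq ι] {F : Type*} [Field F]

theorem subfield_case [Fintype F] [Nonempty ι] (h2 : (2 : F) ≠ 0) (Q : QuadraticForm F (ι → F)) (hQ : (polarBilin Q).Nondegenerate)
    (hdisc : ∀ F₀ : Subfield F, (gram Q).det ∈ F₀) {k : ℕ} (hc : Fintype.card ι = 2 * k + 1)
    (N : Subgroup (GL ι F)) (hN : ActsAbsolutelyIrreducibly (matrixSet N)) (hfix : FixesQuadForm (matrixSet N) Q)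
    (F₀ : Subfield F) (hF₀ : F₀ ≠ ⊤) (hreal : RealisableOver F₀ (matrixSet N)) :
    ∃ (F₁ : Subfield F) (r : ℕ) (P : GL ι F), r.Prime ∧ Fintype.card F = Nat.card F₁ ^ r ∧
      IsQuadFormRationalStructure Q F₁ P ∧ subgroupNormalizer N ≤ subfieldSubgroup F₁ P := by
  classical
  obtain ⟨B, hB⟩ := hreal
  have hG : (gram Q).det ≠ 0 := gram_det_ne_zero Q hQ
  have hinv : ∀ s ∈ matrixSet N, sᵀ * gram Q * s = gram Q :=
    fun s hs => gram_invariant Q s (hfix s hs)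
  obtain ⟨t, ht, hrat⟩ := gram_rational N hN F₀ B hB (gram Q) hG hinv
  have hBidet : (((B⁻¹ : GL ι F) : Matrix ι ι F)).det ≠ 0 := by
    intro h0
    have h1 : (B : Matrix ι ι F) * ((B⁻¹ : GL ι F) : Matrix ι ι F) = 1 := by
      rw [← Units.val_mul, mul_inv_cancel, Units.val_one]
    have := congrArg Matrix.det h1
    rw [Matrix.det_mul, h0, mul_zero, Matrix.det_one] at this
    exact zero_ne_one this
  obtain ⟨l, hl⟩ := rescale hc F₀ (gram Q) ((B⁻¹ : GL ι F) : Matrix ι ι F) hBidet (hdisc F₀) hG t ht hrat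
  obtain ⟨F₁, r, hle, hr, hcard⟩ := Cfsg.Agent.Lib.Helper77.Asch.exists_prime_subfield F₀ hF₀
  refine ⟨F₁, r, scl l * B⁻¹, hr, hcard, ?_, ?_⟩
  · apply quadRational_of_gram h2 Q F₁
    intro i j
    rw [gram_scl]
    exact hle (hl i j)
  · refine le_trans ?_ (subfieldSubgroup_mono hle _)
    rw [subfieldSubgroup_scl]
    exact normalizer_le_subfield N hN F₀ B hB

end Cfsg.Agent.Lib.Helper11.AschO
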