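import Cfsg.Agent.Lib.Helper11.AschO.Defs

set_option autoImplicit false

namespace Cfsg.Agent.Lib.Helper11.AschO

open Cfsg Cfsg.Geo
open Cfsg.Agent.Lib.Helper77.Asch (NormBy MinOver)

/-- SQ. -/
theorem simple_quot_of_inf_bot {G : Type*} [Group G] (Z N : Subgroup G) [Z.Normal] (hZ : N ⊓ Z = ⊥) (hN : N ≠ ⊥)
    (hs : ∀ M : Subgroup G, M ≤ N → NormBy N M → M = ⊥ ∨ M = N) : IsSimpleGroup (N ⧸ Z.subgroupOf N) := by
  have hnt : Nontrivial N := (Subgroup.nontrivial_iff_ne_bot N).2 hN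
  have hsimp : IsSimpleGroup N := by
    refine ⟨fun K hK => ?_⟩
    have hle : K.map N.subtype ≤ N := by
      rintro _ ⟨x, _, rfl⟩
      exact x.2
    have hnorm : NormBy N (K.map N.subtype) := by
      rintro h hh _ ⟨x, hx, rfl⟩
      exact ⟨(⟨h, hh⟩ : N) * x * (⟨h, hh⟩ : N)⁻¹, hK.conj_mem x hx _, rfl⟩
    rcases hs _ hle hnorm with h | h
    · left
      rw [eq_bot_iff]
      intro x hx
      have h1 : (x : G) ∈ K.map N.subtype := ⟨x, hx, rfl⟩
      rw [h, Subgroup.mem_bot] at h1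
      rw [Subgroup.mem_bot]
      exact Subtype.ext h1
    · right
      rw [eq_top_iff]
      intro x _
      have h1 : (x : G) ∈ K.map N.subtype := by rw [h]; exact x.2
      obtain ⟨y, hy, hyx⟩ := h1
      have : y = x := Subtype.ext hyx
      exact this ▸ hy
  have hbot : Z.subgroupOf N = ⊥ := by
    rw [eq_bot_iff]
    intro x hx
    have h1 : (x : G) ∈ N ⊓ Z := ⟨x.2, hx⟩
    rw [hZ, Subgroup.mem_bot] at h1
    rw [Subgroup.mem_bot]
    exact Subtype.ext h1
  have hnt2 : Nontrivial (N ⧸ Z.subgroupOf N) := by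
    rw [QuotientGroup.nontrivial_iff, hbot]
    exact bot_ne_top
  exact IsSimpleGroup.isSimpleGroup_of_surjective (QuotientGroup.mk' (Z.subgroupOf N)) (QuotientGroup.mk'_surjective _)

end Cfsg.Agent.Lib.Helper11.AschO
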