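import Cfsg.Agent.Lib.Helper11.AschO.Defs

/-! Ladder ASCHO (helper11), rung TRANS (helper56). -/

set_option autoImplicit false

namespace Cfsg.Agent.Lib.Helper11.AschO

open Cfsg Cfsg.Geo QuadraticMap
open Cfsg.Agent.Lib.Helper77.Asch (NormBy MinOver)
open scoped MatrixGroups Matrix

variable {ι : Type} [Fintype ι] [DecidableEq ι] {F : Type*} [Field F]

/-- TRANS. -/
theorem decomp_transitive {t m : ℕ} (D : Fin t → Submodule F (ι → F)) (hD : IsMDecomposition m D) (H : Subgroup (GL ι F))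
    (hH : H ≤ decompositionStabilizer D) (hirr : ActsIrreducibly (matrixSet H)) :
    ∀ i j, ∃ h ∈ H, (D i).map (Matrix.toLin' (h : Matrix ι ι F)) = D j := by
  intro i j
  by_contra hcon
  have hne : ∀ k, D k ≠ ⊥ := by
    intro k hk
    have := hD.finrank_eq k
    rw [hk, finrank_bot] at this
    exact hD.pos.ne this
  obtain ⟨S, hS⟩ : ∃ S : Submodule F (ι → F),
      S = ⨆ (k : Fin t) (_ : ∃ h ∈ H, (D i).map (Matrix.toLin' (h : Matrix ι ι F)) = D k), D k := ⟨_, rfl⟩
  have hinv : ∀ s ∈ matrixSet H, S.map (Matrix.toLin' s) ≤ S := by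
    rintro s ⟨g, hg, rfl⟩
    rw [hS, Submodule.map_iSup]
    apply iSup_le
    intro k
    rw [Submodule.map_iSup]
    apply iSup_le
    rintro ⟨h, hh, hk⟩
    obtain ⟨σ, hσ⟩ := hH (H.mul_mem hg hh)
    have h1 : (D k).map (Matrix.toLin' (g : Matrix ι ι F)) = D (σ i) := by
      rw [← hk, ← Submodule.map_comp, ← Matrix.toLin'_mul, ← Units.val_mul, hσ i]
    rw [h1]
    exact le_iSup₂_of_le (σ i) ⟨g * h, H.mul_mem hg hh, hσ i⟩ le_rfl
  have hiS : D i ≤ S := by
    rw [hS]
    refine le_iSup₂_of_le i ⟨1, H.one_mem, ?_⟩ le_rfl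
    rw [Units.val_one, Matrix.toLin'_one, Submodule.map_id]
  have hStop : S = ⊤ := by
    rcases hirr S hinv with h | h
    · exfalso
      apply hne i
      rw [h] at hiS
      exact le_bot_iff.1 hiS
    · exact h
  have hle : S ≤ ⨆ (k : Fin t) (_ : k ≠ j), D k := by
    rw [hS]
    apply iSup₂_le
    intro k hk
    refine le_iSup₂_of_le k ?_ le_rfl
    rintro rfl
    exact hcon hk
  have hdisj := hD.indep j
  apply hne j
  rw [← le_bot_iff]
  apply hdisj le_rfl
  calc D j ≤ ⊤ := le_top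
    _ = S := hStop.symm
    _ ≤ _ := hle

end Cfsg.Agent.Lib.Helper11.AschO
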