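import Cfsg.Agent.Lib.Helper11.AschO.Defs

/-! Ladder ASCHO, rung UN0 (helper76). -/

set_option autoImplicit false

namespace Cfsg.Agent.Lib.Helper11.AschO

open Cfsg Cfsg.Geo QuadraticMap
open scoped MatrixGroups Matrix

variable {ι : Type} [Fintype ι] [DecidableEq ι] {F : Type*} [Field F]

/-- the expansion of a unitary form in the standard basis. -/
theorem un0_expand (σ : F ≃+* F) (f : (ι → F) → (ι → F) → F) (hf : IsUnitaryForm σ f) (u v : ι → F) :
    f u v = u ⬝ᵥ ((Matrix.of fun i j => f (Pi.single i 1) (Pi.single j 1)) *ᵥ fun j => σ (v j)) := by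
  have hz : ∀ v, f 0 v = 0 := by
    intro v
    have := hf.smul_left 0 0 v
    rwa [zero_smul, zero_mul] at this
  have hsumL : ∀ (s : Finset ι) (x : ι → (ι → F)) (v : ι → F),
      f (∑ i ∈ s, x i) v = ∑ i ∈ s, f (x i) v := by
    intro s x v
    induction s using Finset.induction_on with
    | empty => simp [hz]
    | insert a s ha ih => rw [Finset.sum_insert ha, Finset.sum_insert ha, hf.add_left, ih]
  have hL : ∀ u v : ι → F, f u v = ∑ i, u i * f (Pi.single i 1) v := by
    intro u v
    conv_lhs => rw [pi_eq_sum_univ' u]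
    rw [hsumL]
    apply Finset.sum_congr rfl
    intro i _
    rw [hf.smul_left]
  rw [hL u v]
  simp only [dotProduct, Matrix.mulVec, Matrix.of_apply]
  apply Finset.sum_congr rfl
  intro i _
  congr 1
  rw [hf.herm, hL v, map_sum]
  apply Finset.sum_congr rfl
  intro j _
  rw [map_mul, ← hf.herm, mul_comm]

theorem unitary_gram (σ : F ≃+* F) (f : (ι → F) → (ι → F) → F) (hf : IsUnitaryForm σ f) (N : Subgroup (GL ι F))
    (hfix : FixesForm (matrixSet N) f) :
    ∃ U : Matrix ι ι F, U.det ≠ 0 ∧ ∀ s ∈ matrixSet N, sᵀ * U * s.map σ = U := by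
  set U : Matrix ι ι F := Matrix.of fun i j => f (Pi.single i 1) (Pi.single j 1) with hU
  have hexp : ∀ u v, f u v = u ⬝ᵥ (U *ᵥ fun j => σ (v j)) := un0_expand σ f hf
  refine ⟨U, ?_, ?_⟩
  · intro h0
    obtain ⟨w, hw0, hw⟩ := Matrix.exists_mulVec_eq_zero_iff.2 h0
    have hv0 : (fun j => σ (w j)) ≠ 0 := by
      intro h
      apply hw0
      funext j
      have := congrFun h j
      simpa using this
    obtain ⟨x, hx⟩ := (hf.nondegenerate _ hv0).1
    apply hx
    rw [hexp]
    simp only [hf.involutive]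
    rw [hw, dotProduct_zero]
  · intro s hs
    ext i j
    have h1 := hfix s hs (Pi.single i 1) (Pi.single j 1)
    rw [hexp, hexp] at h1
    have h2 : (fun k => σ ((s *ᵥ Pi.single j 1) k)) = s.map σ *ᵥ Pi.single j 1 := by
      funext k
      simp
    have h3 : (fun k => σ ((Pi.single j 1 : ι → F) k)) = Pi.single j 1 := by
      funext k
      by_cases hk : k = j
      · subst hk; simp
      · simp [Pi.single_eq_of_ne hk]
    rw [h2, h3, Matrix.mulVec_mulVec, ← Matrix.vecMul_transpose, ← Matrix.dotProduct_mulVec,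
      Matrix.mulVec_mulVec, ← Matrix.mul_assoc] at h1
    simpa using h1

end Cfsg.Agent.Lib.Helper11.AschO
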