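import Cfsg.Agent.Lib.Helper11.AschO.Defs

/-! Ladder ASCHO, rung UN1 (helper76). -/

set_option autoImplicit false

namespace Cfsg.Agent.Lib.Helper11.AschO

open Cfsg Cfsg.Geo QuadraticMap
open scoped MatrixGroups Matrix

variable {ι : Type} [Fintype ι] [DecidableEq ι] {F : Type*} [Field F]

theorem semilinear_conj (σ : F ≃+* F) (N : Subgroup (GL ι F)) (G U : Matrix ι ι F) (hG : G.det ≠ 0) (hU : U.det ≠ 0)
    (h1 : ∀ s ∈ matrixSet N, sᵀ * G * s = G) (h2 : ∀ s ∈ matrixSet N, sᵀ * U * s.map σ = U) :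
    ∃ A : Matrix ι ι F, A.det ≠ 0 ∧ ∀ s ∈ matrixSet N, s.map σ * A = A * s := by
  have hUU : U * U⁻¹ = 1 := Matrix.mul_nonsing_inv U (isUnit_iff_ne_zero.2 hU)
  refine ⟨U⁻¹ * G, ?_, ?_⟩
  · intro h0
    have h3 : U * (U⁻¹ * G) = G := by rw [← Matrix.mul_assoc, hUU, Matrix.one_mul]
    have := congrArg Matrix.det h3
    rw [Matrix.det_mul, h0, mul_zero] at this
    exact hG this.symm
  · intro s hs
    have hs' := hs
    obtain ⟨g, hg, rfl⟩ := hs'
    have hsU : IsUnit ((g : Matrix ι ι F)ᵀ * U) := by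
      rw [Matrix.isUnit_iff_isUnit_det, Matrix.det_mul, Matrix.det_transpose]
      exact ((Matrix.isUnit_iff_isUnit_det _).1 g.isUnit).mul (isUnit_iff_ne_zero.2 hU)
    apply hsU.mul_left_cancel
    calc (g : Matrix ι ι F)ᵀ * U * ((g : Matrix ι ι F).map σ * (U⁻¹ * G))
        = ((g : Matrix ι ι F)ᵀ * U * (g : Matrix ι ι F).map σ) * U⁻¹ * G := by
          simp only [Matrix.mul_assoc]
      _ = U * U⁻¹ * G := by rw [h2 _ hs]
      _ = G := by rw [hUU, Matrix.one_mul]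
      _ = (g : Matrix ι ι F)ᵀ * G * (g : Matrix ι ι F) := (h1 _ hs).symm
      _ = (g : Matrix ι ι F)ᵀ * (U * U⁻¹) * G * (g : Matrix ι ι F) := by rw [hUU, Matrix.mul_one]
      _ = (g : Matrix ι ι F)ᵀ * U * (U⁻¹ * G * (g : Matrix ι ι F)) := by
          simp only [Matrix.mul_assoc]

end Cfsg.Agent.Lib.Helper11.AschO
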