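import Cfsg.Agent.Lib.Helper11.AschO.Defs

/-! Ladder ASCHO, rung UN2 (helper76). -/

set_option autoImplicit false

namespace Cfsg.Agent.Lib.Helper11.AschO

open Cfsg Cfsg.Geo QuadraticMap
open scoped MatrixGroups Matrix

variable {ι : Type} [Fintype ι] [DecidableEq ι] {F : Type*} [Field F]

omit [DecidableEq ι] in
theorem un2_map_mul (σ : F ≃+* F) (X Y : Matrix ι ι F) : (X * Y).map σ = X.map σ * Y.map σ := by
  ext i j
  simp [Matrix.mul_apply, map_sum]

omit [Fintype ι] [DecidableEq ι] in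
theorem un2_map_map (σ : F ≃+* F) (hσ : ∀ a, σ (σ a) = a) (X : Matrix ι ι F) :
    (X.map σ).map σ = X := by
  ext i j
  simp [hσ]

theorem un2_det_map (σ : F ≃+* F) (X : Matrix ι ι F) : (X.map σ).det = σ X.det :=
  (RingHom.map_det (σ : F →+* F) X).symm

omit [Fintype ι] [DecidableEq ι] in
theorem un2_map_smul (σ : F ≃+* F) (c : F) (X : Matrix ι ι F) :
    (c • X).map σ = σ c • X.map σ := by
  ext i j
  simp

omit [Fintype ι] in
theorem un2_map_one (σ : F ≃+* F) : (1 : Matrix ι ι F).map σ = 1 := by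
  ext i j
  by_cases h : i = j
  · subst h; simp
  · simp [Matrix.one_apply_ne h]

theorem semilinear_normalise {k : ℕ} (hc : Fintype.card ι = 2 * k + 1) (σ : F ≃+* F) (hσ : ∀ a, σ (σ a) = a)
    (N : Subgroup (GL ι F)) (hN : ActsAbsolutelyIrreducibly (matrixSet N)) (A : Matrix ι ι F) (hA : A.det ≠ 0)
    (h : ∀ s ∈ matrixSet N, s.map σ * A = A * s) :
    ∃ A' : Matrix ι ι F, A'.det ≠ 0 ∧ (∀ s ∈ matrixSet N, s.map σ * A' = A' * s) ∧ A'.map σ * A' = 1 := by
  have hne : Nonempty ι := by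
    rw [← Fintype.card_pos_iff]; omega
  obtain ⟨i₀⟩ := hne
  have h' : ∀ s ∈ matrixSet N, s * A.map σ = A.map σ * s.map σ := by
    intro s hs
    have := congrArg (fun X : Matrix ι ι F => X.map σ) (h s hs)
    simp only [un2_map_mul, un2_map_map σ hσ] at this
    exact this
  obtain ⟨c, hcM⟩ := hN.2 (A.map σ * A) (by
    intro s hs
    rw [Matrix.mul_assoc, ← h s hs, ← Matrix.mul_assoc, ← h' s hs, Matrix.mul_assoc])
  have hdet : σ A.det * A.det = c ^ (2 * k + 1) := by
    have := congrArg Matrix.det hcM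
    rw [Matrix.det_mul, un2_det_map, Matrix.det_smul, Matrix.det_one, mul_one, hc] at this
    exact this
  have hσd : σ A.det ≠ 0 := by
    intro h0
    exact hA ((map_eq_zero σ).1 h0)
  have hc0 : c ≠ 0 := by
    rintro rfl
    rw [zero_pow (by omega)] at hdet
    exact (mul_ne_zero hσd hA) hdet
  have hcM' : A * A.map σ = c • (1 : Matrix ι ι F) := by
    have h1 : (c⁻¹ • A.map σ) * A = 1 := by
      rw [Matrix.smul_mul, hcM, smul_smul, inv_mul_cancel₀ hc0, one_smul]
    have h2 : A * (c⁻¹ • A.map σ) = 1 := mul_eq_one_comm.1 h1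
    rw [Matrix.mul_smul] at h2
    rw [← h2, smul_smul, mul_inv_cancel₀ hc0, one_smul]
  have hσc : σ c = c := by
    have := congrArg (fun X : Matrix ι ι F => X.map σ) hcM'
    simp only [un2_map_mul, un2_map_map σ hσ, un2_map_smul, un2_map_one] at this
    rw [hcM] at this
    have h3 := congrFun (congrFun this i₀) i₀
    simpa using h3.symm
  set μ : F := c ^ k / A.det with hμ
  have hμ0 : μ ≠ 0 := div_ne_zero (pow_ne_zero _ hc0) hA
  have hμμ : σ μ * μ = c⁻¹ := by
    rw [hμ, map_div₀, map_pow, hσc, div_mul_div_comm, hdet]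
    field_simp
    ring
  refine ⟨μ • A, ?_, ?_, ?_⟩
  · rw [Matrix.det_smul]
    exact mul_ne_zero (pow_ne_zero _ hμ0) hA
  · intro s hs
    rw [Matrix.mul_smul, h s hs, Matrix.smul_mul]
  · rw [un2_map_smul, Matrix.smul_mul, Matrix.mul_smul, hcM, smul_smul, smul_smul, hμμ,
      inv_mul_cancel₀ hc0, one_smul]

end Cfsg.Agent.Lib.Helper11.AschO
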