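import Cfsg.Agent.Lib.Helper11.AschO.Defs

/-! Ladder ASCHO, rung UN3 (helper76): Hilbert 90 for `GL`, degree 2. -/

set_option autoImplicit false

namespace Cfsg.Agent.Lib.Helper11.AschO

open Cfsg Cfsg.Geo QuadraticMap
open scoped MatrixGroups Matrix

variable {ι : Type} [Fintype ι] [DecidableEq ι] {F : Type*} [Field F]

theorem hilbert90 (σ : F ≃+* F) (hσ : ∀ a, σ (σ a) = a) (hne : σ ≠ RingEquiv.refl F) (A : Matrix ι ι F)
    (hA : A.map σ * A = 1) : ∃ B : GL ι F, (B : Matrix ι ι F).map σ * A = (B : Matrix ι ι F) := by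
  classical
  let φ : (ι → F) → (ι → F) := fun x => (fun i => σ (x i)) ᵥ* A
  have hφ : ∀ x, φ x = (fun i => σ (x i)) ᵥ* A := fun x => rfl
  have hφφ : ∀ x, φ (φ x) = x := by
    intro x
    have h1 : (fun i => σ (φ x i)) = x ᵥ* (A.map σ) := by
      funext j
      simp only [hφ, Matrix.vecMul, dotProduct, map_sum, map_mul, hσ, Matrix.map_apply]
    rw [hφ (φ x), h1, Matrix.vecMul_vecMul, hA, Matrix.vecMul_one]
  have hφadd : ∀ x y, φ (x + y) = φ x + φ y := by
    intro x y
    rw [hφ, hφ, hφ, ← Matrix.add_vecMul]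
    congr 1
    funext i
    simp
  have hφsmul : ∀ (c : F) x, φ (c • x) = σ c • φ x := by
    intro c x
    rw [hφ, hφ, ← Matrix.smul_vecMul]
    congr 1
    funext i
    simp
  obtain ⟨θ, hθ⟩ : ∃ θ, σ θ ≠ θ := by
    by_contra h
    push Not at h
    exact hne (RingEquiv.ext h)
  let V₀ : Set (ι → F) := {x | φ x = x}
  have hspan : ⊤ ≤ Submodule.span F V₀ := by
    intro v _
    have h1 : v + φ v ∈ V₀ := by
      show φ (v + φ v) = v + φ v
      rw [hφadd, hφφ, add_comm]
    have h2 : θ • v + σ θ • φ v ∈ V₀ := by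
      show φ _ = _
      rw [hφadd, hφsmul, hφsmul, hφφ, hσ, add_comm]
    have h3 : v = (σ θ - θ)⁻¹ • (σ θ • (v + φ v) - (θ • v + σ θ • φ v)) := by
      have : σ θ • (v + φ v) - (θ • v + σ θ • φ v) = (σ θ - θ) • v := by
        rw [smul_add, sub_smul]; abel
      rw [this, smul_smul, inv_mul_cancel₀ (sub_ne_zero.2 hθ), one_smul]
    rw [h3]
    exact Submodule.smul_mem _ _ (Submodule.sub_mem _
      (Submodule.smul_mem _ _ (Submodule.subset_span h1)) (Submodule.subset_span h2))
  let b0 := Module.Basis.ofSpan hspan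
  have hb0 : ∀ i, b0 i ∈ V₀ := fun i => Module.Basis.ofSpan_subset hspan ⟨i, rfl⟩
  haveI := FiniteDimensional.fintypeBasisIndex b0
  have hcard := (Module.finrank_eq_card_basis b0).symm.trans
    (Module.finrank_fintype_fun_eq_card (η := ι) F)
  let e := Fintype.equivOfCardEq hcard
  let b := b0.reindex e
  have hb : ∀ i, φ (b i) = b i := by
    intro i
    have : b i = b0 (e.symm i) := by simp [b]
    rw [this]
    exact hb0 _
  let C : Matrix ι ι F := (Pi.basisFun F ι).toMatrix b
  have hC : C * b.toMatrix (Pi.basisFun F ι) = 1 := Module.Basis.toMatrix_mul_toMatrix_flip _ _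
  have hCdet : C.det ≠ 0 := by
    intro h0
    have := congrArg Matrix.det hC
    rw [Matrix.det_mul, h0, zero_mul, Matrix.det_one] at this
    exact zero_ne_one this
  have hCapp : ∀ i j, C i j = b j i := by
    intro i j
    simp [C, Module.Basis.toMatrix_apply]
  refine ⟨Matrix.GeneralLinearGroup.mkOfDetNeZero Cᵀ (by rwa [Matrix.det_transpose]), ?_⟩
  change (Cᵀ).map σ * A = Cᵀ
  ext i j
  have h1 := congrFun (hb i) j
  rw [Matrix.transpose_apply, hCapp, ← h1, hφ]
  simp only [Matrix.mul_apply, Matrix.vecMul, dotProduct, Matrix.map_apply, Matrix.transpose_apply,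
    hCapp]

end Cfsg.Agent.Lib.Helper11.AschO
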