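import Cfsg.Agent.Lib.Helper11.AschO.Defs
import Cfsg.Agent.Lib.Helper11.AschO.GR1
import Cfsg.Agent.Lib.Helper11.AschO.GR2
import Cfsg.Agent.Lib.Helper11.AschO.UN0
import Cfsg.Agent.Lib.Helper11.AschO.UN1
import Cfsg.Agent.Lib.Helper11.AschO.UN2
import Cfsg.Agent.Lib.Helper11.AschO.UN3

/-! Ladder ASCHO, rung UN (helper76): assembly of UN0-UN3, GR1, GR2. -/

set_option autoImplicit false

namespace Cfsg.Agent.Lib.Helper11.AschO

open Cfsg Cfsg.Geo QuadraticMap
open scoped MatrixGroups Matrix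

variable {ι : Type} [Fintype ι] [DecidableEq ι] {F : Type*} [Field F]

theorem unitary_realisable {k : ℕ} (hc : Fintype.card ι = 2 * k + 1) (Q : QuadraticForm F (ι → F))
    (hQ : (polarBilin Q).Nondegenerate) (N : Subgroup (GL ι F)) (hN : ActsAbsolutelyIrreducibly (matrixSet N))
    (hfix : FixesQuadForm (matrixSet N) Q) (σ : F ≃+* F) (f : (ι → F) → (ι → F) → F) (hf : IsUnitaryForm σ f)
    (hfixf : FixesForm (matrixSet N) f) : ∃ F₀ : Subfield F, F₀ ≠ ⊤ ∧ RealisableOver F₀ (matrixSet N) := by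
  have hσ := hf.involutive
  obtain ⟨U, hU, hUs⟩ := unitary_gram σ f hf N hfixf
  obtain ⟨A, hA, hAs⟩ := semilinear_conj σ N (gram Q) U (gram_det_ne_zero Q hQ) hU
    (fun s hs => gram_invariant Q s (hfix s hs)) hUs
  obtain ⟨A', _, hA's, hA'1⟩ := semilinear_normalise hc σ hσ N hN A hA hAs
  obtain ⟨B, hB⟩ := hilbert90 σ hσ hf.ne_refl A' hA'1
  refine ⟨fixF σ, ?_, B, ?_⟩
  · intro htop
    apply hf.ne_refl
    ext a
    have : a ∈ fixF σ := by rw [htop]; trivial
    exact this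
  · intro s hs i j
    obtain ⟨X, hX⟩ : ∃ X : Matrix ι ι F,
        X = (B : Matrix ι ι F) * s * ((B⁻¹ : GL ι F) : Matrix ι ι F) := ⟨_, rfl⟩
    rw [← hX]
    have hXB : X * (B : Matrix ι ι F) = (B : Matrix ι ι F) * s := by
      rw [hX, Matrix.mul_assoc, ← Matrix.GeneralLinearGroup.coe_mul, inv_mul_cancel]
      simp
    have key : X.map σ * (B : Matrix ι ι F) = X * (B : Matrix ι ι F) := by
      calc X.map σ * (B : Matrix ι ι F)
          = X.map σ * ((B : Matrix ι ι F).map σ * A') := by rw [hB]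
        _ = (X * (B : Matrix ι ι F)).map σ * A' := by rw [un2_map_mul, Matrix.mul_assoc]
        _ = (B : Matrix ι ι F).map σ * (s.map σ * A') := by
            rw [hXB, un2_map_mul, Matrix.mul_assoc]
        _ = ((B : Matrix ι ι F).map σ * A') * s := by rw [hA's s hs, Matrix.mul_assoc]
        _ = X * (B : Matrix ι ι F) := by rw [hB, hXB]
    have hXX : X.map σ = X := B.isUnit.mul_right_cancel key
    exact congrFun (congrFun hXX i) j

end Cfsg.Agent.Lib.Helper11.AschO
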