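import Cfsg.Agent.Lib.Helper11.AschO.GRED
import Cfsg.Agent.Lib.Helper11.AschO.GCL1
import Cfsg.Agent.Lib.Helper11.AschO.GCL2
import Cfsg.Agent.Lib.Helper11.AschO.TRANS
import Cfsg.Agent.Lib.Helper11.AschO.ABSI
import Cfsg.Agent.Lib.Helper11.AschO.CCOM
import Cfsg.Agent.Lib.Helper11.AschO.O1
import Cfsg.Agent.Lib.Helper11.AschO.O2
import Cfsg.Agent.Lib.Helper11.AschO.O3
import Cfsg.Agent.Lib.Helper11.AschO.P1
import Cfsg.Agent.Lib.Helper11.AschO.P2
import Cfsg.Agent.Lib.Helper11.AschO.P3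
import Cfsg.Agent.Lib.Helper11.AschO.R1
import Cfsg.Agent.Lib.Helper11.AschO.R2
import Cfsg.Agent.Lib.Helper11.AschO.R3
import Cfsg.Agent.Lib.Helper11.AschO.R4
import Cfsg.Agent.Lib.Helper11.AschO.R5
import Cfsg.Agent.Lib.Helper11.AschO.AB
import Cfsg.Agent.Lib.Helper11.AschO.FR
import Cfsg.Agent.Lib.Helper11.AschO.FS
import Cfsg.Agent.Lib.Helper11.AschO.SF
import Cfsg.Agent.Lib.Helper11.AschO.UN
import Cfsg.Agent.Lib.Helper11.AschO.SQ
import Cfsg.Agent.Lib.Helper11.AschO.SCZ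
import Cfsg.Agent.Lib.Helper11.AschO.DISC
import Cfsg.Agent.Lib.Helper77.Asch.AG0
import Cfsg.Agent.Lib.Helper77.Asch.AG2
import Cfsg.Agent.Lib.Helper77.Asch.AG3
import Cfsg.Agent.Lib.Helper77.Asch.AG4
import Cfsg.Agent.Lib.Helper77.Asch.AG5

set_option autoImplicit false
set_option linter.unusedSectionVars false
set_option linter.style.haveILetI false

namespace Cfsg.Agent.Lib.Helper11.AschO

open Cfsg Cfsg.Geo QuadraticMap
open Cfsg.Agent.Lib.Helper77.Asch (NormBy MinOver)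
open scoped MatrixGroups Matrix

variable {ι : Type} [Fintype ι] [DecidableEq ι] {F : Type*} [Field F]

theorem main_matrixSet_mono {A B : Subgroup (GL ι F)} (h : A ≤ B) : matrixSet A ⊆ matrixSet B := by
  rintro _ ⟨g, hg, rfl⟩
  exact ⟨g, h hg, rfl⟩

theorem main_fixes_mono {A B : Subgroup (GL ι F)} (h : A ≤ B) (Q : (ι → F) → F)
    (hB : FixesQuadForm (matrixSet B) Q) : FixesQuadForm (matrixSet A) Q :=
  fun s hs => hB s (main_matrixSet_mono h hs)

theorem main_finrank_ne_top (W : Submodule F (ι → F)) (h : Module.finrank F W < Fintype.card ι) : W ≠ ⊤ := by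
  rintro rfl
  rw [finrank_top, Module.finrank_fintype_fun_eq_card] at h
  exact lt_irrefl _ h

theorem main_finrank_ne_bot (W : Submodule F (ι → F)) (h : 0 < Module.finrank F W) : W ≠ ⊥ := by
  rintro rfl
  rw [finrank_bot] at h
  exact lt_irrefl _ h

theorem main_finrank_pos (W : Submodule F (ι → F)) (h : W ≠ ⊥) : 0 < Module.finrank F W := by
  rw [Module.finrank_pos_iff, Submodule.nontrivial_iff_ne_bot]
  exact h

theorem main_finrank_lt (W : Submodule F (ι → F)) (h : W ≠ ⊤) : Module.finrank F W < Fintype.card ι := by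
  have h1 := Submodule.finrank_lt h
  rwa [Module.finrank_fintype_fun_eq_card] at h1

/-- the reducible case -/
theorem main_red [Fintype F] (h2 : (2 : F) ≠ 0) (Q : QuadraticForm F (ι → F)) (hQ : (polarBilin Q).Nondegenerate)
    {k : ℕ} (hk : Fintype.card ι = 2 * k + 1) (h7 : 7 ≤ Fintype.card ι)
    (H : Subgroup (GL ι F)) (hfix : FixesQuadForm (matrixSet H) Q) (W : Submodule F (ι → F)) (hW0 : W ≠ ⊥) (hW1 : W ≠ ⊤)
    (hHW : H ≤ subspaceStabilizer W) :
    (∃ W : Submodule F (ι → F), W ≠ ⊥ ∧ W ≠ ⊤ ∧ IsTotallySingularQuad Q W ∧ H ≤ subspaceStabilizer W) ∨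
    (∃ W : Submodule F (ι → F), W ≠ ⊥ ∧ W ≠ ⊤ ∧ Even (Module.finrank F W) ∧ IsNondegenerateOn (polar Q) W ∧
      ¬ (Fintype.card F = 3 ∧ Module.finrank F W = 2 ∧ IsPlusTypeOn Q W) ∧ H ≤ subspaceStabilizer W) := by
  have hHp := stab_perp Q H hfix W hHW
  by_cases hR : W ⊓ perp Q W = ⊥
  swap
  · left
    refine ⟨W ⊓ perp Q W, hR, ?_, rad_singular h2 Q W, stab_inf H W _ hHW hHp⟩
    intro h
    exact hW1 (eq_top_iff.2 (h ▸ inf_le_left))
  right
  obtain ⟨hn1, hn2, hsum⟩ := nondeg_of_inf_bot Q hQ W hR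
  have hp1 := main_finrank_pos W hW0
  have hl1 := main_finrank_lt W hW1
  obtain ⟨W₁, hW₁0, hW₁1, hev, hnd, hst⟩ : ∃ W₁ : Submodule F (ι → F), W₁ ≠ ⊥ ∧ W₁ ≠ ⊤ ∧ Even (Module.finrank F W₁) ∧
      IsNondegenerateOn (polar Q) W₁ ∧ H ≤ subspaceStabilizer W₁ := by
    rcases Nat.even_or_odd (Module.finrank F W) with he | ho
    · exact ⟨W, hW0, hW1, he, hn1, hHW⟩
    · refine ⟨perp Q W, main_finrank_ne_bot _ (by omega), main_finrank_ne_top _ (by omega), ?_, hn2, hHp⟩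
      obtain ⟨a, ha⟩ := ho
      exact ⟨k - a, by omega⟩
  by_cases hex : Fintype.card F = 3 ∧ Module.finrank F W₁ = 2 ∧ IsPlusTypeOn Q W₁
  swap
  · exact ⟨W₁, hW₁0, hW₁1, hev, hnd, hex, hst⟩
  obtain ⟨a, ha, hQa, hall⟩ := plus_plane_three Q W₁ hex.1 hnd hex.2.1 hex.2.2
  obtain ⟨W', hd, hnd', hst'⟩ := plus_plane_replace h2 Q hQ H hfix W₁ hst a ha hQa hall
  refine ⟨W', main_finrank_ne_bot _ (by omega), main_finrank_ne_top _ (by omega), ⟨k, by omega⟩, hnd', ?_, hst'⟩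
  rintro ⟨-, h, -⟩
  omega

theorem main_comm_of_commutator {G : Type*} [Group G] (N : Subgroup G) (h : ⁅N, N⁆ ≤ ⊥) :
    ∀ x ∈ N, ∀ y ∈ N, x * y = y * x := by
  intro x hx y hy
  have h1 := h (Subgroup.commutator_mem_commutator hx hy)
  rw [Subgroup.mem_bot, commutatorElement_eq_one_iff_mul_comm] at h1
  exact h1

theorem main_solvable_of_comm {G : Type*} [Group G] (M : Subgroup G) (h : ∀ x ∈ M, ∀ y ∈ M, x * y = y * x) :
    Group.IsSolvable M := by
  apply Group.isSolvable_of_comm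
  intro a b
  exact Subtype.ext (h a a.2 b b.2)

/-- **Aschbacher's theorem for `Ω_n(q)`, `n ≥ 7` an odd prime, `q` odd.** -/
theorem main [Fintype F] (h2 : (2 : F) ≠ 0) (Q : QuadraticForm F (ι → F)) (hQ : (polarBilin Q).Nondegenerate)
    (hdisc : ∀ F₀ : Subfield F, (gram Q).det ∈ F₀) {n k : ℕ} (hc : Fintype.card ι = n) (hn : n.Prime)
    (hk : n = 2 * k + 1) (h7 : 7 ≤ n) (H : Subgroup (GL ι F)) (hH : IsMaximalIn (omegaGL Q) H) :
    (∃ W : Submodule F (ι → F), W ≠ ⊥ ∧ IsTotallySingularQuad Q W ∧ H = subspaceStabilizer W ⊓ omegaGL Q) ∨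
    (∃ W : Submodule F (ι → F), W ≠ ⊥ ∧ Even (Module.finrank F W) ∧ IsNondegenerateOn (polar Q) W ∧
      ¬ (Fintype.card F = 3 ∧ Module.finrank F W = 2 ∧ IsPlusTypeOn Q W) ∧ H = subspaceStabilizer W ⊓ omegaGL Q) ∨
    ((Fintype.card F).Prime ∧ ∃ D : Fin n → Submodule F (ι → F), IsOrthogonalMDecomposition Q 1 D ∧
      H = decompositionStabilizer D ⊓ omegaGL Q) ∨
    (∃ (F₀ : Subfield F) (r : ℕ) (P : GL ι F), r.Prime ∧ Fintype.card F = Nat.card F₀ ^ r ∧
      IsQuadFormRationalStructure Q F₀ P ∧ H = subfieldSubgroup F₀ P ⊓ omegaGL Q) ∨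
    InOrthogonalResidualClass H := by
  classical
  have hHle : H ≤ omegaGL Q := hH.1.le
  have hfixH : FixesQuadForm (matrixSet H) Q := main_fixes_mono hHle _ (omega_fixes Q)
  have h7' : 7 ≤ Fintype.card ι := hc ▸ h7
  have hn' : (Fintype.card ι).Prime := hc ▸ hn
  have hk' : Fintype.card ι = 2 * k + 1 := hc.trans hk
  have hodd : Odd (Fintype.card ι) := ⟨k, hk'⟩
  haveI : Nonempty ι := Fintype.card_pos_iff.1 (by omega)
  have key : ∀ X : Subgroup (GL ι F), H ≤ X → ¬ omegaGL Q ≤ X → H = X ⊓ omegaGL Q := by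
    intro X hX hnot
    rcases hH.2 (X ⊓ omegaGL Q) (le_inf hX hHle) inf_le_right with h | h
    · exact h.symm
    · exact absurd (h ▸ inf_le_left) hnot
  by_cases hirr : ActsIrreducibly (matrixSet H)
  swap
  · obtain ⟨W, hW0, hW1, hHW⟩ := red H hirr
    rcases main_red h2 Q hQ hk' h7' H hfixH W hW0 hW1 hHW with ⟨W', h0, h1, hs, hst⟩ | ⟨W', h0, h1, he, hnd, hex, hst⟩
    · exact Or.inl ⟨W', h0, hs, key _ hst (not_le_subspace Q hQ h7' W' h0 h1)⟩
    · exact Or.inr (Or.inl ⟨W', h0, he, hnd, hex, key _ hst (not_le_subspace Q hQ h7' W' h0 h1)⟩)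
  have hHne : H ≠ ⊥ := ne_bot_of_irr (by omega) H hirr
  obtain ⟨N, hm⟩ := Cfsg.Agent.Lib.Helper77.Asch.exists_minOver H ⊥ (bot_lt_iff_ne_bot.2 hHne)
  have hNH : N ≤ H := hm.le
  have hNn : NormBy H N := hm.norm
  have hNne : N ≠ ⊥ := hm.lt.ne'
  have hfixN : FixesQuadForm (matrixSet N) Q := main_fixes_mono hNH _ hfixH
  have hdetN : ∀ x ∈ N, (x : Matrix ι ι F).det = 1 := fun x hx => omega_det Q x (hHle (hNH hx))
  have hNZ : N ⊓ scalars ι F = ⊥ := by
    rw [eq_bot_iff, ← omega_inf_scalars Q hQ hodd]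
    exact inf_le_inf_right _ (hNH.trans hHle)
  have hsub4 : ∀ (F₁ : Subfield F) (r : ℕ) (P : GL ι F), r.Prime → Fintype.card F = Nat.card F₁ ^ r →
      IsQuadFormRationalStructure Q F₁ P → H ≤ subfieldSubgroup F₁ P →
      ∃ (F₀ : Subfield F) (r : ℕ) (P : GL ι F), r.Prime ∧ Fintype.card F = Nat.card F₀ ^ r ∧
      IsQuadFormRationalStructure Q F₀ P ∧ H = subfieldSubgroup F₀ P ⊓ omegaGL Q := by
    intro F₁ r P hr hcard hrat hle
    exact ⟨F₁, r, P, hr, hcard, hrat, key _ hle (not_le_subfield Q hQ h7' F₁ (ne_top_of_card F₁ r hr hcard) P)⟩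
  have hcl := cliff_line hn' H N hNH hNn hirr
  by_cases hab : ∀ x ∈ N, ∀ y ∈ N, x * y = y * x
  · rcases hcl with hNirr | ⟨v, hv, hev⟩
    · exact absurd (abelian_irr_trivial h2 Q hQ hodd N hfixN hdetN hab hNirr) hNne
    rcases cliff_decomp hc hn H N hNH hNn hirr v hv hev with hsc | ⟨-, D, χ, hD, hHD, hw, hdist⟩
    · exact absurd (eq_bot_iff.2 (hNZ ▸ le_inf le_rfl hsc)) hNne
    have htr := decomp_transitive D hD H hHD hirr
    have hOD := frame_orth Q hQ (⟨k, hk⟩ : Odd n) H N hNH hfixH D χ hD hw hdist htr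
    by_cases hq : (Fintype.card F).Prime
    · exact Or.inr (Or.inr (Or.inl ⟨hq, D, hOD, key _ hHD (not_le_decomp h2 Q hQ h7' hc D hOD)⟩))
    · obtain ⟨F₁, r, P, hr, hcard, hrat, hle⟩ := frame_subfield h2 Q hQ hdisc hc hk D hOD hq H hfixH hHD
      exact Or.inr (Or.inr (Or.inr (Or.inl (hsub4 F₁ r P hr hcard hrat hle))))
  -- nonabelian
  have hNirr : ActsIrreducibly (matrixSet N) := by
    rcases hcl with h | ⟨v, hv, hev⟩
    · exact h
    rcases cliff_decomp hc hn H N hNH hNn hirr v hv hev with hsc | ⟨hcomm, -⟩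
    · exact absurd (eq_bot_iff.2 (hNZ ▸ le_inf le_rfl hsc)) hNne
    · exact absurd hcomm hab
  have hNabs : ActsAbsolutelyIrreducibly (matrixSet N) := (absIrr_or_comm hn' N hNirr).resolve_right hab
  have hnab : ¬ ⁅N, N⁆ ≤ ⊥ := fun h => hab (main_comm_of_commutator N h)
  have hbc : ∀ z ∈ (⊥ : Subgroup (GL ι F)), ∀ g : GL ι F, g * z = z * g := by
    intro z hz g
    rw [Subgroup.mem_bot] at hz
    rw [hz, mul_one, one_mul]
  have hL : ∀ M : Subgroup (GL ι F), M ≤ N → NormBy N M →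
      Group.IsSolvable M ∨ ∀ a ∈ N, ∀ b ∈ N, (∀ y ∈ M, a * y = y * a) → (∀ y ∈ M, b * y = y * b) → a * b = b * a := by
    intro M hMN hMn
    rcases cliff_line hn' N M hMN hMn hNirr with hMirr | ⟨v, hv, hev⟩
    · right
      intro a _ b _ ha hb
      exact commutant_comm M hMirr a b ha hb
    · left
      rcases cliff_decomp hc hn N M hMN hMn hNirr v hv hev with hsc | ⟨hcomm, -⟩
      · apply main_solvable_of_comm
        have hMb : M ≤ ⊥ := hNZ ▸ le_inf hMN hsc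
        intro x hx y hy
        rw [(Subgroup.mem_bot).1 (hMb hx), (Subgroup.mem_bot).1 (hMb hy)]
      · exact main_solvable_of_comm M hcomm
  have hsimple := Cfsg.Agent.Lib.Helper77.Asch.simple_of_minOver H ⊥ N hbc hm hnab hL
  have hperf := Cfsg.Agent.Lib.Helper77.Asch.perfect_core H ⊥ N hbc hm hnab
  have hNN : ⁅N, N⁆ = N := by simpa using hperf.2
  have hHnorm : H ≤ subgroupNormalizer N := (Cfsg.Agent.Lib.Helper77.Asch.ag5_normBy_iff H N).1 hNn
  by_cases hsub : ∃ F₀ : Subfield F, F₀ ≠ ⊤ ∧ RealisableOver F₀ (matrixSet N)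
  · obtain ⟨F₀, h0, hreal⟩ := hsub
    obtain ⟨F₁, r, P, hr, hcard, hrat, hle⟩ := subfield_case h2 Q hQ hdisc hk' N hNabs hfixN F₀ h0 hreal
    exact Or.inr (Or.inr (Or.inr (Or.inl (hsub4 F₁ r P hr hcard hrat (hHnorm.trans hle)))))
  refine Or.inr (Or.inr (Or.inr (Or.inr ⟨N, ⟨hNH, hNn, hNN, ?_, ?_, ?_, hNabs, ?_⟩, ?_⟩)))
  · exact simple_quot_of_inf_bot (scalars ι F) N hNZ hNne (fun M hM hMn => hsimple M bot_le hM hMn)
  · apply Cfsg.Agent.Lib.Helper77.Asch.nonabelian_quot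
    rw [hNN]
    intro h
    exact hNne (eq_bot_iff.2 (hNZ ▸ le_inf le_rfl h))
  · intro h _ hh
    have hcen := Cfsg.Agent.Lib.Helper77.Asch.centralizes_of_perfect (scalars ι F) N
      (fun z hz g => scalars_central z hz g) hNN h hh
    obtain ⟨c, hc'⟩ := hNabs.2 (h : Matrix ι ι F) (by
      rintro _ ⟨x, hx, rfl⟩
      have := congrArg (fun g : GL ι F => (g : Matrix ι ι F)) (hcen x hx)
      simpa using this)
    have hc0 : c ≠ 0 := by
      rintro rfl
      have h1 : (h : Matrix ι ι F) = 0 := by rw [hc', zero_smul]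
      have h3 : (h : Matrix ι ι F) * ((h⁻¹ : GL ι F) : Matrix ι ι F) = 1 := by
        rw [← Units.val_mul, mul_inv_cancel, Units.val_one]
      rw [h1, zero_mul] at h3
      exact zero_ne_one h3
    rw [mem_scalars_iff]
    exact ⟨Units.mk0 c hc0, hc'⟩
  · intro F₀ h0 hreal
    exact hsub ⟨F₀, h0, hreal⟩
  · rintro ⟨σ, f, hf, hfixf⟩
    exact hsub (unitary_realisable hk' Q hQ N hNabs hfixN σ f hf hfixf)

end Cfsg.Agent.Lib.Helper11.AschO
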