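import Cfsg.Agent.Lib.Helper11.AschO.Defs

/-! Ladder ASCHO, rung O4. -/

set_option autoImplicit false
set_option linter.unusedSectionVars false

namespace Cfsg.Agent.Lib.Helper11.AschO

open Cfsg Cfsg.Geo QuadraticMap
open scoped MatrixGroups Matrix

variable {ι : Type} [Fintype ι] [DecidableEq ι] {F : Type*} [Field F]

/-- pure matrix lemma -/
theorem o4_det_sub_one {n : Type*} [Fintype n] [DecidableEq n] (h2 : (2 : F) ≠ 0)
    (hn : Odd (Fintype.card n)) (x Γ : Matrix n n F) (hΓ : Γ.det ≠ 0) (hiso : xᵀ * Γ * x = Γ)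
    (hdet : x.det = 1) : (x - 1).det = 0 := by
  have e1 : xᵀ * Γ * (x - 1) = -((x - 1)ᵀ * Γ) := by
    rw [Matrix.mul_sub, hiso, Matrix.mul_one, Matrix.transpose_sub, Matrix.transpose_one, Matrix.sub_mul,
      Matrix.one_mul, neg_sub]
  have h3 := congrArg Matrix.det e1
  rw [Matrix.det_mul, Matrix.det_mul, Matrix.det_neg, Matrix.det_mul, Matrix.det_transpose,
    Matrix.det_transpose, hdet, one_mul, hn.neg_one_pow] at h3
  have h4 : (2 : F) * (Γ.det * (x - 1).det) = 0 := by linear_combination h3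
  rcases mul_eq_zero.1 h4 with h5 | h5
  · exact absurd h5 h2
  · exact (mul_eq_zero.1 h5).resolve_left hΓ

theorem fixed_vector (h2 : (2 : F) ≠ 0) (Q : QuadraticForm F (ι → F)) (hQ : (polarBilin Q).Nondegenerate)
    (hodd : Odd (Fintype.card ι)) (x : Matrix ι ι F) (hx : ∀ v, Q (x *ᵥ v) = Q v) (hdet : x.det = 1) :
    ∃ v : ι → F, v ≠ 0 ∧ x *ᵥ v = v := by
  have hd : (x - 1).det = 0 := by
    refine o4_det_sub_one h2 hodd x (LinearMap.BilinForm.toMatrix' (polarBilin Q)) ?_ ?_ hdet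
    · have := (LinearMap.BilinForm.nondegenerate_toMatrix'_iff (B := polarBilin Q)).2 hQ
      exact Matrix.nondegenerate_iff_det_ne_zero.1 this
    · rw [LinearMap.BilinForm.mul_toMatrix'_mul, Matrix.transpose_transpose]
      congr 1
      refine LinearMap.ext fun a => LinearMap.ext fun c => ?_
      rw [LinearMap.BilinForm.comp_apply, Matrix.toLin'_apply, Matrix.toLin'_apply,
        polarBilin_apply_apply, polarBilin_apply_apply]
      unfold polar
      rw [← Matrix.mulVec_add, hx, hx, hx]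
  obtain ⟨v, hv, hv2⟩ := Matrix.exists_mulVec_eq_zero_iff.2 hd
  refine ⟨v, hv, ?_⟩
  rw [Matrix.sub_mulVec, Matrix.one_mulVec, sub_eq_zero] at hv2
  exact hv2

end Cfsg.Agent.Lib.Helper11.AschO
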