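import Cfsg.Agent.Lib.Helper11.AschO.Defs
import Cfsg.Agent.Lib.Helper50.QuadClass

/-! Ladder ASCHO, rung SING. -/

set_option autoImplicit false
set_option linter.unusedSectionVars false

namespace Cfsg.Agent.Lib.Helper11.AschO

open Cfsg Cfsg.Geo QuadraticMap
open scoped MatrixGroups Matrix

variable {ι : Type} [Fintype ι] [DecidableEq ι] {F : Type*} [Field F]

theorem exists_singular_in [Fintype F] (Q : QuadraticForm F (ι → F)) (U : Submodule F (ι → F))
    (hU : 3 ≤ Module.finrank F U) : ∃ z ∈ U, z ≠ 0 ∧ Q z = 0 := by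
  apply Cfsg.Agent.Lib.Helper50.Quad.exists_singular (Q := Q) U
  rw [Module.natCard_eq_pow_finrank (K := F) (V := U), Nat.card_eq_fintype_card]
  exact Nat.pow_lt_pow_right Fintype.one_lt_card (by omega)

end Cfsg.Agent.Lib.Helper11.AschO
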