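import Cfsg.Agent.Lib.Helper11.AschO.WIT
import Cfsg.Agent.Lib.Helper11.AschO.SING

/-! Ladder ASCHO, rung P3. -/

set_option autoImplicit false
set_option linter.unusedSectionVars false

namespace Cfsg.Agent.Lib.Helper11.AschO

open Cfsg Cfsg.Geo QuadraticMap
open scoped MatrixGroups Matrix

variable {ι : Type} [Fintype ι] [DecidableEq ι] {F : Type*} [Field F]

theorem not_le_subfield [Fintype F] (Q : QuadraticForm F (ι → F)) (hQ : (polarBilin Q).Nondegenerate)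
    (h7 : 7 ≤ Fintype.card ι) (F₀ : Subfield F) (h : F₀ ≠ ⊤) (P : GL ι F) :
    ¬ omegaGL Q ≤ subfieldSubgroup F₀ P := by
  intro hle
  obtain ⟨θ, hθ⟩ : ∃ a, a ∉ F₀ := by
    by_contra hcon
    push Not at hcon
    exact h (eq_top_iff.2 fun z _ => hcon z)
  obtain ⟨i₀⟩ : Nonempty ι := Fintype.card_pos_iff.1 (by omega)
  have hPP : ∀ z : ι → F, ((P⁻¹ : GL ι F) : Matrix ι ι F) *ᵥ ((P : Matrix ι ι F) *ᵥ z) = z := by
    intro z
    rw [Matrix.mulVec_mulVec, ← Units.val_mul, inv_mul_cancel, Units.val_one, Matrix.one_mulVec]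
  set a : ι → F := (P : Matrix ι ι F) *ᵥ Pi.single i₀ 1 with ha
  have hPa : ((P⁻¹ : GL ι F) : Matrix ι ι F) *ᵥ a = Pi.single i₀ 1 := hPP _
  let L : (ι → F) →ₗ[F] F × F :=
    (polarBilin Q a).prod ((LinearMap.proj i₀).comp (Matrix.toLin' ((P⁻¹ : GL ι F) : Matrix ι ι F)))
  have hL : ∀ z, z ∈ LinearMap.ker L ↔
      polar Q a z = 0 ∧ (((P⁻¹ : GL ι F) : Matrix ι ι F) *ᵥ z) i₀ = 0 := by
    intro z
    rw [LinearMap.mem_ker]
    show ((polarBilin Q a z, (Matrix.toLin' ((P⁻¹ : GL ι F) : Matrix ι ι F) z) i₀) : F × F) = 0 ↔ _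
    rw [Prod.mk_eq_zero, polarBilin_apply_apply, Matrix.toLin'_apply]
  have hdim : 3 ≤ Module.finrank F (LinearMap.ker L) := by
    have h1 := LinearMap.finrank_range_add_finrank_ker L
    have h2 : Module.finrank F (LinearMap.range L) ≤ 2 := by
      have := Submodule.finrank_le (LinearMap.range L)
      rwa [Module.finrank_prod, Module.finrank_self] at this
    rw [Module.finrank_fintype_fun_eq_card] at h1
    omega
  obtain ⟨z, hzU, hz0, hQz⟩ := exists_singular_in Q (LinearMap.ker L) hdim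
  obtain ⟨hz1, hz2⟩ := (hL z).1 hzU
  obtain ⟨j, hj⟩ : ∃ j, (((P⁻¹ : GL ι F) : Matrix ι ι F) *ᵥ z) j ≠ 0 := by
    by_contra hcon
    push Not at hcon
    apply hz0
    have h0 : ((P⁻¹ : GL ι F) : Matrix ι ι F) *ᵥ z = 0 := funext hcon
    have := congrArg (fun y => (P : Matrix ι ι F) *ᵥ y) h0
    simp only [Matrix.mulVec_mulVec, ← Units.val_mul, mul_inv_cancel, Units.val_one, Matrix.one_mulVec,
      Matrix.mulVec_zero] at this
    exact this
  have hji : j ≠ i₀ := by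
    rintro rfl
    exact hj hz2
  set t : F := θ / (((P⁻¹ : GL ι F) : Matrix ι ι F) *ᵥ z) j with ht
  set a' : ι → F := a + t • z with ha'
  have hPa' : ((P⁻¹ : GL ι F) : Matrix ι ι F) *ᵥ a' =
      Pi.single i₀ 1 + t • (((P⁻¹ : GL ι F) : Matrix ι ι F) *ᵥ z) := by
    rw [ha', Matrix.mulVec_add, Matrix.mulVec_smul, hPa]
  have hc0 : (((P⁻¹ : GL ι F) : Matrix ι ι F) *ᵥ a') i₀ = 1 := by
    rw [hPa', Pi.add_apply, Pi.smul_apply, hz2, Pi.single_eq_same, smul_zero, add_zero]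
  have hcj : (((P⁻¹ : GL ι F) : Matrix ι ι F) *ᵥ a') j = θ := by
    rw [hPa', Pi.add_apply, Pi.smul_apply, Pi.single_eq_of_ne hji, zero_add, smul_eq_mul, ht,
      div_mul_cancel₀ _ hj]
  have hQa : Q a = Q a' := by
    rw [ha', QuadraticMap.map_add Q, QuadraticMap.map_smul, hQz, polar_smul_right, hz1]
    simp
  have ha0 : a ≠ 0 := by
    intro h0
    rw [h0, Matrix.mulVec_zero] at hPa
    have := congrFun hPa i₀
    simp at this
  have ha'0 : a' ≠ 0 := by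
    intro h0
    rw [h0, Matrix.mulVec_zero] at hc0
    simp at hc0
  obtain ⟨g, hg, hga⟩ := omega_map_vec Q hQ h7 a a' ha0 ha'0 hQa
  obtain ⟨x, hx, hxe⟩ := hle hg
  have hxe' : P * x * P⁻¹ = g := hxe
  obtain ⟨g0, ⟨y, rfl⟩, s, hs, hprod⟩ := Subgroup.mem_sup_of_normal_right.1 hx
  obtain ⟨c, hc⟩ := (mem_scalars_iff s).1 hs
  have hent : ∀ i k, (x : Matrix ι ι F) i k = (c : F) * ((y i k : F₀) : F) := by
    intro i k
    rw [← hprod, Units.val_mul, hc, Matrix.mul_smul, Matrix.mul_one, Matrix.smul_apply, smul_eq_mul]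
    rfl
  have hcol : (x : Matrix ι ι F) *ᵥ Pi.single i₀ 1 = ((P⁻¹ : GL ι F) : Matrix ι ι F) *ᵥ a' := by
    have hx2 : x = P⁻¹ * g * P := by rw [← hxe']; group
    rw [hx2, Units.val_mul, Units.val_mul, ← Matrix.mulVec_mulVec, ← Matrix.mulVec_mulVec, ← ha, hga]
  have hcol' : ∀ i, (x : Matrix ι ι F) i i₀ = (((P⁻¹ : GL ι F) : Matrix ι ι F) *ᵥ a') i := by
    intro i
    rw [← hcol, Matrix.mulVec_single_one]
    rfl
  have h00 := hent i₀ i₀
  have hj0 := hent j i₀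
  rw [hcol', hc0] at h00
  rw [hcol', hcj] at hj0
  have hcF : (c : F) ∈ F₀ := by
    have hy : ((y i₀ i₀ : F₀) : F) ≠ 0 := by
      intro h0
      rw [h0, mul_zero] at h00
      exact one_ne_zero h00
    have : (c : F) = ((y i₀ i₀ : F₀) : F)⁻¹ := by
      field_simp
      exact h00.symm
    rw [this]
    exact F₀.inv_mem (y i₀ i₀ : F₀).2
  apply hθ
  rw [hj0]
  exact F₀.mul_mem hcF (y j i₀ : F₀).2

end Cfsg.Agent.Lib.Helper11.AschO
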