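import Cfsg.Agent.Lib.Helper11.AschO.Defs

set_option autoImplicit false

namespace Cfsg.Agent.Lib.Helper11.AschO

open Cfsg Cfsg.Geo
open scoped MatrixGroups Matrix

variable {ι : Type} [Fintype ι] [DecidableEq ι] {F : Type*} [Field F]

/-- SCZ. -/
theorem scalars_central (z : GL ι F) (hz : z ∈ scalars ι F) (g : GL ι F) : g * z = z * g := by
  rw [mem_scalars_iff] at hz
  obtain ⟨c, hc⟩ := hz
  apply Units.ext
  rw [Units.val_mul, Units.val_mul, hc, Matrix.mul_smul, Matrix.smul_mul, Matrix.mul_one, Matrix.one_mul]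

/-- NT. -/
theorem ne_top_of_card [Fintype F] (F₁ : Subfield F) (r : ℕ) (hr : r.Prime) (h : Fintype.card F = Nat.card F₁ ^ r) : F₁ ≠ ⊤ := by
  rintro rfl
  have h1 : Nat.card (⊤ : Subfield F) = Fintype.card F := by
    rw [← Nat.card_eq_fintype_card]
    exact Nat.card_congr Subfield.topEquiv.toEquiv
  rw [h1] at h
  have h2 : 1 < Fintype.card F := Fintype.one_lt_card
  have h4 : Fintype.card F ^ 1 = Fintype.card F ^ r := by rw [pow_one]; exact h
  have := Nat.pow_right_injective h2 h4
  exact hr.one_lt.ne this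

/-- I0. -/
theorem ne_bot_of_irr (h2 : 2 ≤ Fintype.card ι) (H : Subgroup (GL ι F)) (hH : ActsIrreducibly (matrixSet H)) : H ≠ ⊥ := by
  rintro rfl
  have hne : Nonempty ι := Fintype.card_pos_iff.1 (by omega)
  obtain ⟨i⟩ := hne
  have hs : (Pi.single i 1 : ι → F) ≠ 0 := by
    intro h
    have := congrFun h i
    simp at this
  rcases hH (Submodule.span F {(Pi.single i 1 : ι → F)}) (by
    rintro _ ⟨g, hg, rfl⟩
    have hg1 : g = 1 := hg
    subst hg1
    show Submodule.map (Matrix.toLin' ((1 : GL ι F) : Matrix ι ι F)) _ ≤ _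
    rw [Units.val_one, Matrix.toLin'_one, Submodule.map_id]) with h | h
  · rw [Submodule.span_singleton_eq_bot] at h
    exact hs h
  · have h3 := finrank_span_singleton (K := F) hs
    rw [h, finrank_top, Module.finrank_fintype_fun_eq_card] at h3
    omega

end Cfsg.Agent.Lib.Helper11.AschO
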