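import Cfsg.Agent.Lib.Helper11.AschO.Defs

/-! Ladder ASCHO, rung SF1: the Gram matrix is rational up to a scalar. -/

set_option autoImplicit false

namespace Cfsg.Agent.Lib.Helper11.AschO

open Cfsg Cfsg.Geo
open scoped MatrixGroups Matrix

variable {ι : Type} [Fintype ι] [DecidableEq ι] {F : Type*} [Field F]

/-- own copy of FIXF (so that this file depends on `Defs` only). -/
theorem sf1_mem_of_pow_card [Fintype F] (F₀ : Subfield F) (a : F) (h : a ^ Nat.card F₀ = a) : a ∈ F₀ := by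
  classical
  let _ : Fintype F₀ := Fintype.ofFinite F₀
  set q := Nat.card F₀ with hq
  have hq1 : 1 < q := by rw [hq, Nat.card_eq_fintype_card]; exact Fintype.one_lt_card
  set p : Polynomial F := Polynomial.X ^ q - Polynomial.X with hp
  have hp0 : p ≠ 0 := FiniteField.X_pow_card_sub_X_ne_zero F hq1
  have hdeg : p.natDegree = q := FiniteField.X_pow_card_sub_X_natDegree_eq F hq1
  let T : Finset F := Finset.univ.image (fun y : F₀ => (y : F))
  have hTcard : T.card = q := by
    rw [Finset.card_image_of_injective _ Subtype.val_injective, Finset.card_univ, hq,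
      Nat.card_eq_fintype_card]
  have hTsub : T ⊆ p.roots.toFinset := by
    intro x hx
    obtain ⟨y, _, rfl⟩ := Finset.mem_image.1 hx
    rw [Multiset.mem_toFinset, Polynomial.mem_roots hp0]
    have h1 : y ^ q = y := by
      rw [hq, Nat.card_eq_fintype_card]; exact FiniteField.pow_card y
    have h2 : (y : F) ^ q = y := by
      have := congrArg (fun z : F₀ => (z : F)) h1
      simpa using this
    simp [p, Polynomial.IsRoot, h2]
  have hle : p.roots.toFinset.card ≤ T.card := by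
    rw [hTcard, ← hdeg]
    exact (Multiset.toFinset_card_le _).trans (Polynomial.card_roots' p)
  have heq := Finset.eq_of_subset_of_card_le hTsub hle
  have ha : a ∈ p.roots.toFinset := by
    rw [Multiset.mem_toFinset, Polynomial.mem_roots hp0]
    simp [p, Polynomial.IsRoot, h]
  rw [← heq] at ha
  obtain ⟨y, _, rfl⟩ := Finset.mem_image.1 ha
  exact y.2

theorem gram_rational [Fintype F] (N : Subgroup (GL ι F)) (hN : ActsAbsolutelyIrreducibly (matrixSet N)) (F₀ : Subfield F)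
    (B : GL ι F) (hB : ∀ s ∈ matrixSet N, ∀ i j,
      ((B : Matrix ι ι F) * s * ((B⁻¹ : GL ι F) : Matrix ι ι F)) i j ∈ F₀)
    (G : Matrix ι ι F) (hG : G.det ≠ 0) (hinv : ∀ s ∈ matrixSet N, sᵀ * G * s = G) :
    ∃ t : F, t ≠ 0 ∧ ∀ i j, t⁻¹ * (((B⁻¹ : GL ι F) : Matrix ι ι F)ᵀ * G * ((B⁻¹ : GL ι F) : Matrix ι ι F)) i j ∈ F₀ := by
  classical
  rcases isEmpty_or_nonempty ι with hemp | hnon
  · exact ⟨1, one_ne_zero, fun i => (hemp.false i).elim⟩
  let _ : Fintype F₀ := Fintype.ofFinite F₀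
  let φ : F →+* F := (FiniteField.frobeniusAlgHom F₀ F).toRingHom
  have hφ : ∀ a, φ a = a ^ Nat.card F₀ := by
    intro a
    rw [Nat.card_eq_fintype_card]
    rfl
  have hφ0 : ∀ a ∈ F₀, φ a = a := by
    intro a ha
    exact (FiniteField.frobeniusAlgHom F₀ F).commutes ⟨a, ha⟩
  set Bm : Matrix ι ι F := (B : Matrix ι ι F) with hBm
  set Bi : Matrix ι ι F := ((B⁻¹ : GL ι F) : Matrix ι ι F) with hBi
  have hBBi : Bm * Bi = 1 := by
    rw [hBm, hBi, ← Units.val_mul, mul_inv_cancel, Units.val_one]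
  have hBiB : Bi * Bm = 1 := by
    rw [hBm, hBi, ← Units.val_mul, inv_mul_cancel, Units.val_one]
  have hBBiT : Bmᵀ * Biᵀ = 1 := by
    rw [← Matrix.transpose_mul, hBiB, Matrix.transpose_one]
  set G' : Matrix ι ι F := Biᵀ * G * Bi with hG'
  have hBidet : Bi.det ≠ 0 := by
    intro h0
    have := congrArg Matrix.det hBBi
    rw [Matrix.det_mul, h0, mul_zero, Matrix.det_one] at this
    exact zero_ne_one this
  have hG'det : G'.det ≠ 0 := by
    rw [hG', Matrix.det_mul, Matrix.det_mul, Matrix.det_transpose]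
    exact mul_ne_zero (mul_ne_zero hBidet hG) hBidet
  have hG'u : IsUnit G'.det := isUnit_iff_ne_zero.2 hG'det
  have hmul : ∀ M M' : Matrix ι ι F, (M * M').map φ = M.map φ * M'.map φ := by
    intro M M'; exact Matrix.map_mul
  -- the key commutation
  have hkey : ∀ s ∈ matrixSet N, (G'⁻¹ * G'.map φ) * (Bm * s * Bi) = (Bm * s * Bi) * (G'⁻¹ * G'.map φ) := by
    intro s hs
    have hs' := hs
    obtain ⟨g, hg, rfl⟩ := hs'
    set s : Matrix ι ι F := (g : Matrix ι ι F) with hsdef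
    set t : Matrix ι ι F := ((g⁻¹ : GL ι F) : Matrix ι ι F) with htdef
    have hst : s * t = 1 := by
      rw [hsdef, htdef, ← Units.val_mul, mul_inv_cancel, Units.val_one]
    set s' : Matrix ι ι F := Bm * s * Bi with hs'def
    set t' : Matrix ι ι F := Bm * t * Bi with ht'def
    have hs't' : s' * t' = 1 := by
      rw [hs'def, ht'def]
      calc Bm * s * Bi * (Bm * t * Bi) = Bm * s * (Bi * Bm) * t * Bi := by
            simp only [Matrix.mul_assoc]
        _ = Bm * (s * t) * Bi := by rw [hBiB, Matrix.mul_one, Matrix.mul_assoc Bm s t]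
        _ = 1 := by rw [hst, Matrix.mul_one, hBBi]
    have ht's'T : t'ᵀ * s'ᵀ = 1 := by
      rw [← Matrix.transpose_mul, hs't', Matrix.transpose_one]
    have hφs' : s'.map φ = s' := by
      ext i j
      exact hφ0 _ (hB s hs i j)
    have hφs'T : (s'ᵀ).map φ = s'ᵀ := by
      ext i j
      exact hφ0 _ (hB s hs j i)
    have e0 : s'ᵀ * G' * s' = G' := by
      rw [hs'def, hG']
      simp only [Matrix.transpose_mul]
      calc Biᵀ * (sᵀ * Bmᵀ) * (Biᵀ * G * Bi) * (Bm * s * Bi)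
          = Biᵀ * sᵀ * (Bmᵀ * Biᵀ) * G * (Bi * Bm) * s * Bi := by simp only [Matrix.mul_assoc]
        _ = Biᵀ * (sᵀ * G * s) * Bi := by
            rw [hBBiT, hBiB]; simp only [Matrix.mul_one, Matrix.mul_assoc]
        _ = Biᵀ * G * Bi := by rw [hinv s hs]
    have e0φ : s'ᵀ * G'.map φ * s' = G'.map φ := by
      have := congrArg (fun M : Matrix ι ι F => M.map φ) e0
      simp only [hmul, hφs', hφs'T] at this
      exact this
    have e1 : G' * s' = t'ᵀ * G' := by
      have := congrArg (fun M : Matrix ι ι F => t'ᵀ * M) e0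
      simp only [← Matrix.mul_assoc, ht's'T, Matrix.one_mul] at this
      exact this
    have e2 : G'.map φ * s' = t'ᵀ * G'.map φ := by
      have := congrArg (fun M : Matrix ι ι F => t'ᵀ * M) e0φ
      simp only [← Matrix.mul_assoc, ht's'T, Matrix.one_mul] at this
      exact this
    have e3 : s' * G'⁻¹ = G'⁻¹ * t'ᵀ := by
      have := congrArg (fun M : Matrix ι ι F => G'⁻¹ * M * G'⁻¹) e1
      simp only [← Matrix.mul_assoc, Matrix.nonsing_inv_mul G' hG'u, Matrix.one_mul] at this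
      rw [Matrix.mul_assoc (G'⁻¹ * t'ᵀ), Matrix.mul_nonsing_inv G' hG'u, Matrix.mul_one] at this
      exact this
    rw [Matrix.mul_assoc, e2, ← Matrix.mul_assoc s', e3, Matrix.mul_assoc]
  obtain ⟨c, hc⟩ := hN.2 (Bi * (G'⁻¹ * G'.map φ) * Bm) (by
    intro s hs
    have h1 := hkey s hs
    have h2 : Bi * ((G'⁻¹ * G'.map φ) * (Bm * s * Bi)) * Bm
        = Bi * ((Bm * s * Bi) * (G'⁻¹ * G'.map φ)) * Bm := by rw [h1]
    calc Bi * (G'⁻¹ * G'.map φ) * Bm * s
        = Bi * ((G'⁻¹ * G'.map φ) * (Bm * s * Bi)) * Bm := by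
          simp only [Matrix.mul_assoc, hBiB, Matrix.mul_one]
      _ = Bi * ((Bm * s * Bi) * (G'⁻¹ * G'.map φ)) * Bm := h2
      _ = (Bi * Bm) * s * (Bi * (G'⁻¹ * G'.map φ) * Bm) := by
          simp only [Matrix.mul_assoc]
      _ = s * (Bi * (G'⁻¹ * G'.map φ) * Bm) := by rw [hBiB, Matrix.one_mul])
  have hM : G'⁻¹ * G'.map φ = c • 1 := by
    have h1 : Bm * (Bi * (G'⁻¹ * G'.map φ) * Bm) * Bi = Bm * (c • (1 : Matrix ι ι F)) * Bi := by
      rw [hc]
    have h2 : Bm * (Bi * (G'⁻¹ * G'.map φ) * Bm) * Bi = (Bm * Bi) * (G'⁻¹ * G'.map φ) * (Bm * Bi) := by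
      simp only [Matrix.mul_assoc]
    rw [h2, hBBi, Matrix.one_mul, Matrix.mul_one] at h1
    rw [h1, Matrix.mul_smul, Matrix.mul_one, Matrix.smul_mul, hBBi]
  have hφG : G'.map φ = c • G' := by
    have h1 : G' * (G'⁻¹ * G'.map φ) = G' * (c • (1 : Matrix ι ι F)) := by rw [hM]
    rw [← Matrix.mul_assoc, Matrix.mul_nonsing_inv G' hG'u, Matrix.one_mul, Matrix.mul_smul,
      Matrix.mul_one] at h1
    exact h1
  have hG'0 : G' ≠ 0 := by
    intro h0
    rw [h0, Matrix.det_zero] at hG'det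
    exact hG'det rfl
  obtain ⟨i₀, j₀, ht⟩ : ∃ i₀ j₀, G' i₀ j₀ ≠ 0 := by
    by_contra hcon
    apply hG'0
    ext i j
    by_contra h1
    exact hcon ⟨i, j, h1⟩
  have hent : ∀ i j, φ (G' i j) = c * G' i j := by
    intro i j
    have := congrFun (congrFun hφG i) j
    simpa using this
  have hc0 : c ≠ 0 := by
    intro h0
    have h1 := hent i₀ j₀
    rw [h0, zero_mul] at h1
    exact ht ((map_eq_zero φ).1 h1)
  refine ⟨G' i₀ j₀, ht, fun i j => ?_⟩
  apply sf1_mem_of_pow_card F₀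
  rw [← hφ, map_mul, map_inv₀, hent, hent]
  field_simp

end Cfsg.Agent.Lib.Helper11.AschO
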