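import Cfsg.Agent.Lib.Helper11.AschO.Defs
import Cfsg.Agent.Lib.Helper95.OmGlue
import Cfsg.Agent.Lib.Helper49.WittOmega

/-! Ladder ASCHO, rung WIT. -/

set_option autoImplicit false
set_option linter.unusedSectionVars false

namespace Cfsg.Agent.Lib.Helper11.AschO

open Cfsg Cfsg.Geo QuadraticMap
open scoped MatrixGroups Matrix

variable {ι : Type} [Fintype ι] [DecidableEq ι] {F : Type*} [Field F]

theorem omega_map_vec [Fintype F] (Q : QuadraticForm F (ι → F)) (hQ : (polarBilin Q).Nondegenerate)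
    (h7 : 7 ≤ Fintype.card ι) (a a' : ι → F) (ha : a ≠ 0) (ha' : a' ≠ 0) (h : Q a = Q a') :
    ∃ g ∈ omegaGL Q, (g : Matrix ι ι F) *ᵥ a = a' := by
  have hfr : Module.finrank F (ι → F) = Fintype.card ι := Module.finrank_fintype_fun_eq_card F
  let e1 := LinearEquiv.toSpanNonzeroSingleton F (ι → F) a ha
  let e2 := LinearEquiv.toSpanNonzeroSingleton F (ι → F) a' ha'
  have he1 : ∀ c : F, ((e1 c : Submodule.span F {a}) : ι → F) = c • a := fun c => rfl
  have he2 : ∀ c : F, ((e2 c : Submodule.span F {a'}) : ι → F) = c • a' := fun c => rfl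
  obtain ⟨k, hk, hka⟩ := Cfsg.Agent.Lib.Helper49.witt_commutator Q hQ (Or.inr (by rw [hfr]; omega))
    (Submodule.span F {a}) (Submodule.span F {a'}) (e1.symm.trans e2)
    (by
      intro x
      obtain ⟨c, rfl⟩ := e1.surjective x
      rw [LinearEquiv.trans_apply, LinearEquiv.symm_apply_apply, he1, he2, QuadraticMap.map_smul,
        QuadraticMap.map_smul, h])
    (by rw [finrank_span_singleton ha, hfr]; omega)
  refine ⟨Cfsg.Agent.Lib.Helper95.glEquiv.symm k.1, ?_, ?_⟩
  · rw [Cfsg.Agent.Lib.Helper95.mem_omegaGL_iff, MulEquiv.apply_symm_apply]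
    exact ⟨k, hk, rfl⟩
  · rw [Cfsg.Agent.Lib.Helper95.glEquiv_symm_mulVec]
    have := hka (e1 1)
    rw [LinearEquiv.trans_apply, LinearEquiv.symm_apply_apply, he1, he2, one_smul, one_smul] at this
    exact this

end Cfsg.Agent.Lib.Helper11.AschO
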